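import Cfsg.Agent.Lib.AutOmega.PlusFour
import Cfsg.Agent.Lib.AutOmegaOdd.Std

/-!
Counting automorphisms of `PΩ` through the outer automorphism group.
-/

set_option autoImplicit false

namespace Cfsg.Agent.Lib.AutOmega

open QuadraticMap hiding proj
open Cfsg.Agent.Lib.Classical.Quad Cfsg.Agent.Lib.Classical.QuadOmega
open Cfsg.Agent.Lib.AutOmegaOdd (G G_ext Semi)

universe u

variable {F : Type u} [Field F] [Fintype F] {ι : Type} [Fintype ι] [DecidableEq ι]
  {f : (ι → F) → F} {Q : QuadraticForm F (ι → F)}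

theorem conj_injective_PG (hG : Good Q) :
    Function.Injective (MulAut.conj : PG Q →* MulAut (PG Q)) := by
  rw [injective_iff_map_eq_one]
  intro x hx
  obtain ⟨g, rfl⟩ := pr_surjective x
  rw [← conjP_ofIso, conjP_eq_one_iff hG] at hx
  obtain ⟨c, hc⟩ := hx
  rw [pr_eq_one, Subgroup.mem_center_iff]
  intro h
  refine Subtype.ext (ofIso_injective ?_)
  rw [Subgroup.coe_mul, Subgroup.coe_mul, map_mul, map_mul, hc, ofScalar_comm _ (ofIso_σ h.1) c]

/-- The order of the automorphism group from that of the outer automorphism group. -/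
theorem card_aut_of_out (hf : ∀ v, Q v = f v) (hG : Good Q) :
    Nat.card (MulAut (Cfsg.POmega F f)) =
      Nat.card (Cfsg.Out (Cfsg.POmega F f)) * Nat.card (Cfsg.POmega F f) := by
  have hinj : Function.Injective
      (MulAut.conj : Cfsg.POmega F f →* MulAut (Cfsg.POmega F f)) := fun a b h => by
    refine (toPG hf hG).injective (conj_injective_PG hG (MulEquiv.ext fun z => ?_))
    obtain ⟨y, rfl⟩ := (toPG hf hG).surjective z
    simp only [MulAut.conj_apply, ← map_mul, ← map_inv]
    exact congrArg _ (DFunLike.congr_fun h y)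
  rw [← Subgroup.card_mul_index (Cfsg.Inn (Cfsg.POmega F f)), mul_comm,
    show Nat.card (Cfsg.Inn (Cfsg.POmega F f)) = Nat.card (Cfsg.POmega F f) from
      (Nat.card_congr (MonoidHom.ofInjective hinj).toEquiv).symm]
  rfl

theorem even_half_iff {m q : ℕ} (hq : Odd q) :
    Even (m * (q - 1) / 2) ↔ ¬ (q % 4 = 3 ∧ Odd m) := by
  obtain ⟨j, rfl⟩ := hq
  rw [Nat.add_sub_cancel, show m * (2 * j) = m * j * 2 by ring, Nat.mul_div_cancel _ two_pos,
    Nat.even_mul, ← Nat.not_even_iff_odd]
  rcases Nat.even_or_odd j with hj | hj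
  · obtain ⟨i, rfl⟩ := hj
    exact iff_of_true (Or.inr ⟨i, rfl⟩) fun h => by omega
  · obtain ⟨i, rfl⟩ := hj
    refine ⟨fun h hh => hh.2 (h.resolve_right (Nat.not_even_iff_odd.2 ⟨i, rfl⟩)), fun h => Or.inl ?_⟩
    by_contra hm
    exact h ⟨by omega, hm⟩

end Cfsg.Agent.Lib.AutOmega
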