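import Cfsg.Agent.Lib.AutOmega.OutPlus
import Cfsg.Agent.Lib.Chev.OutNormal

/-!
The outer automorphism group of the Chevalley groups of type `D₄`.
-/

set_option autoImplicit false
set_option linter.unusedSectionVars false

namespace Cfsg.Agent.Lib.AutOmega.OutFour

open Cfsg.Lie Cfsg.Agent.Lib Cfsg.Agent.Lib.Chev

universe u

/-! ### Groups -/

section grp

variable {X : Type*} [Group X]

/-- A subgroup of a group of order six with two elements that do not commute is everything. -/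
theorem eq_of_card_six {A B : Subgroup X} (hle : A ≤ B) (hB : Nat.card B = 6) {a b : X}
    (ha : a ∈ A) (hb : b ∈ A) (hab : a * b ≠ b * a) : A = B := by
  have : Finite B := Nat.finite_of_card_ne_zero (by omega)
  have hd : Nat.card A ∣ 6 := hB ▸ Subgroup.card_dvd_of_le hle
  have hA : Nat.card A ∈ Nat.divisors 6 := Nat.mem_divisors.2 ⟨hd, by norm_num⟩
  have hnc : ¬ IsCyclic A := fun h => hab (by
    let _ := h.commGroup
    exact congrArg Subtype.val (mul_comm (⟨a, ha⟩ : A) ⟨b, hb⟩))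
  refine Subgroup.eq_of_le_of_card_ge hle ?_
  rw [show Nat.divisors 6 = {1, 2, 3, 6} by decide] at hA
  simp only [Finset.mem_insert, Finset.mem_singleton] at hA
  rcases hA with h | h | h | h
  · refine absurd ?_ hnc
    have : Subsingleton A := (Nat.card_eq_one_iff_unique.1 h).1
    exact isCyclic_of_subsingleton
  · haveI : Fact (Nat.Prime 2) := ⟨Nat.prime_two⟩
    exact absurd (isCyclic_of_prime_card h) hnc
  · haveI : Fact (Nat.Prime 3) := ⟨Nat.prime_three⟩
    exact absurd (isCyclic_of_prime_card h) hnc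
  · rw [h, hB]

/-- A group of order `n!` with a core-free subgroup of index `n` is symmetric. -/
theorem perm_of_core [Finite X] (H : Subgroup X) {n : ℕ} (hi : H.index = n)
    (hc : Nat.card X = n.factorial) (hcore : H.normalCore = ⊥) :
    Nonempty (X ≃* Equiv.Perm (Fin n)) := by
  classical
  have hinj : Function.Injective (MulAction.toPermHom X (X ⧸ H)) := by
    rw [← MonoidHom.ker_eq_bot_iff, ← Subgroup.normalCore_eq_ker, hcore]
  have e : (X ⧸ H) ≃ Fin n := Finite.equivFinOfCardEq hi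
  let φ : X →* Equiv.Perm (Fin n) :=
    (e.permCongrHom : Equiv.Perm (X ⧸ H) ≃* Equiv.Perm (Fin n)).toMonoidHom.comp
      (MulAction.toPermHom X (X ⧸ H))
  have hφ : Function.Injective φ := e.permCongrHom.injective.comp hinj
  exact ⟨MulEquiv.ofBijective φ ((Nat.bijective_iff_injective_and_card _).2
    ⟨hφ, by rw [hc, Nat.card_perm, Nat.card_fin]⟩)⟩

/-- Isomorphic groups have isomorphic outer automorphism groups. -/
theorem out_congr {A B : Type*} [Group A] [Group B] (e : A ≃* B) :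
    Nonempty (Cfsg.Out A ≃* Cfsg.Out B) := by
  refine ⟨QuotientGroup.congr _ _ (MulAut.congr e) ?_⟩
  ext α
  constructor
  · rintro ⟨_, ⟨y, rfl⟩, rfl⟩
    exact ⟨e y, by ext x; simp⟩
  · rintro ⟨y, rfl⟩
    exact ⟨MulAut.conj (e.symm y), ⟨_, rfl⟩, by ext x; simp⟩

end grp

variable {F : Type u} [Field F] [Fintype F]

local notation "C" => D4.checked

local notation "P" => Checked.nodePerm (F := F) D4.checked en_D4

/-- The automorphism permutes the simple root elements. -/
def IsGraph (θ : ↥(stabUV chevD4 F)) (π : Equiv.Perm (Fin chevD4.rank)) : Prop :=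
  ∀ (i : Fin chevD4.rank) (t : F),
    θ.1 (Checked.xgG C (chevD4.simple i) t) = Checked.xgG C (chevD4.simple (π i)) t ∧
    θ.1 (Checked.xgG C (chevD4.neg (chevD4.simple i)) t) =
      Checked.xgG C (chevD4.neg (chevD4.simple (π i))) t

theorem IsGraph.eq {θ : ↥(stabUV chevD4 F)} {π : Equiv.Perm (Fin chevD4.rank)}
    (h : IsGraph θ π) : P θ = π :=
  Equiv.ext fun i => D4.checked.nodePerm_eq_of_image en_D4 i (π i)
    (by rw [(h i 1).1, Checked.coe_xgG])

theorem IsGraph.mul {θ θ' : ↥(stabUV chevD4 F)} {π π' : Equiv.Perm (Fin chevD4.rank)}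
    (h : IsGraph θ π) (h' : IsGraph θ' π') : IsGraph (θ * θ') (π * π') := fun i t =>
  ⟨by rw [Subgroup.coe_mul, MulAut.mul_apply, (h' i t).1, (h _ t).1, Equiv.Perm.mul_apply],
    by rw [Subgroup.coe_mul, MulAut.mul_apply, (h' i t).2, (h _ t).2, Equiv.Perm.mul_apply]⟩

theorem IsGraph.inv {θ : ↥(stabUV chevD4 F)} {π : Equiv.Perm (Fin chevD4.rank)}
    (h : IsGraph θ π) : IsGraph θ⁻¹ π⁻¹ := fun i t => by
  have e : π (π⁻¹ i) = i := π.apply_symm_apply i
  have h1 := h (π⁻¹ i) t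
  rw [e] at h1
  constructor
  · rw [← h1.1, Subgroup.coe_inv, MulAut.inv_apply_self]
  · rw [← h1.2, Subgroup.coe_inv, MulAut.inv_apply_self]

variable (F) in
/-- The graph automorphisms. -/
def graphs : Subgroup ↥(stabUV chevD4 F) where
  carrier := {θ | ∃ π, IsGraph θ π}
  one_mem' := ⟨1, fun _ _ => ⟨rfl, rfl⟩⟩
  mul_mem' := fun ⟨_, h⟩ ⟨_, h'⟩ => ⟨_, h.mul h'⟩
  inv_mem' := fun ⟨_, h⟩ => ⟨_, h.inv⟩

theorem spec_graph {θ : ↥(stabUV chevD4 F)} (h : θ ∈ graphs F) : IsGraph θ (P θ) := by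
  obtain ⟨π, hπ⟩ := h
  rwa [hπ.eq]

theorem graph_eq_one {θ : ↥(stabUV chevD4 F)} (h : θ ∈ graphs F) (hp : P θ = 1) : θ = 1 :=
  Subtype.ext (D4.checked.aut_ext fun i t => by
    have h1 := spec_graph h i t
    rw [hp] at h1
    exact h1)

theorem mem_of_sym {S S' : Sym} (H : SymData chevD4 D4.fast S S')
    (H' : SymData chevD4 D4.fast S' S) (hp : ∀ r, chevD4.IsPosRoot r → chevD4.IsPosRoot (S.r r))
    (hp' : ∀ r, chevD4.IsPosRoot r → chevD4.IsPosRoot (S'.r r)) :
    ∃ θ ∈ graphs F, ∀ i : Fin chevD4.rank, (P θ i).1 = S.p i := by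
  let θ : ↥(stabUV chevD4 F) := ⟨_, H.graphAut_mem C H' hp hp'⟩
  have hP : ∀ i : Fin chevD4.rank, P θ i = ⟨S.p i, H.p_lt i i.2⟩ := fun i =>
    D4.checked.nodePerm_eq_of_image en_D4 i _ (H.graphAut_simple C H' i i.2 1)
  refine ⟨θ, ⟨P θ, fun i t => ?_⟩, fun i => by rw [hP]⟩
  obtain ⟨h1, h2⟩ := H.graphAut_spec C H' (Checked.xgG C (chevD4.simple i) t) i t i.2
  obtain ⟨-, h3⟩ :=
    H.graphAut_spec C H' (Checked.xgG C (chevD4.neg (chevD4.simple i)) t) i t i.2
  rw [hP]
  constructor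
  · refine Subtype.ext (Units.ext ?_)
    rw [h1 (by rw [Checked.coe_xgG, D4.checked.val_xg]), Checked.coe_xgG, D4.checked.val_xg]
  · refine Subtype.ext (Units.ext ?_)
    rw [h3 (by rw [Checked.coe_xgG, D4.checked.val_xg]), Checked.coe_xgG, D4.checked.val_xg]

/-- The centre node. -/
def mid : Fin chevD4.rank := ⟨1, by decide⟩

theorem graphs_map : (graphs F).map P = (P).range ∧
    ∀ θ : ↥(stabUV chevD4 F), P θ mid = mid := by
  obtain ⟨a, ha, ha'⟩ := mem_of_sym (F := F) D4.symData D4.symData'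
    (pos_of_check (by decide +kernel)) (pos_of_check (by decide +kernel))
  obtain ⟨b, hb, hb'⟩ := mem_of_sym (F := F) D4.swapSymData D4.swapSymData
    (pos_of_check (by decide +kernel)) (pos_of_check (by decide +kernel))
  have hA : ∀ i < chevD4.rank, D4.sym.p i = [2, 1, 3, 0].getD i 0 := fun i hi => by
    have hi' : i < 4 := hi
    interval_cases i <;> decide +kernel
  have hB : ∀ i < chevD4.rank, D4.swapSym.p i = [2, 1, 0, 3].getD i 0 := fun i hi => by
    have hi' : i < 4 := hi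
    interval_cases i <;> decide +kernel
  have hne : P a * P b ≠ P b * P a := fun e => by
    have h := congrArg Fin.val (Equiv.congr_fun e ⟨0, by decide⟩)
    simp only [Equiv.Perm.mul_apply] at h
    rw [ha', hb', hb', ha'] at h
    rw [hA _ (D4.swapSymData.p_lt _ (by decide)), hB 0 (by decide),
      hB _ (D4.symData.p_lt _ (by decide)), hA 0 (by decide)] at h
    simp at h
  have h6 := (range_D4 (F := F)).1
  refine ⟨eq_of_card_six (MonoidHom.range_eq_map P ▸ Subgroup.map_mono le_top) h6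
    ⟨a, ha, rfl⟩ ⟨b, hb, rfl⟩ hne, fun θ => ?_⟩
  let S : Subgroup (Equiv.Perm (Fin chevD4.rank)) :=
    MulAction.stabilizer (Equiv.Perm (Fin chevD4.rank)) mid
  have hS : ∀ θ : ↥(stabUV chevD4 F), (P θ mid).1 = 1 → P θ ∈ (P).range ⊓ S := fun θ h =>
    ⟨⟨θ, rfl⟩, Fin.ext h⟩
  have := eq_of_card_six (A := (P).range ⊓ S) inf_le_left h6
    (hS a ((ha' mid).trans (hA 1 (by decide))))
    (hS b ((hb' mid).trans (hB 1 (by decide)))) hne
  exact ((this.symm ▸ (⟨θ, rfl⟩ : P θ ∈ (P).range) : P θ ∈ (P).range ⊓ S)).2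

theorem exists_graph (θ : ↥(stabUV chevD4 F)) : ∃ γ ∈ graphs F, P γ = P θ := by
  have h : P θ ∈ (graphs F).map P := by
    rw [(graphs_map (F := F)).1]
    exact ⟨θ, rfl⟩
  exact h

theorem card_graphs : Nat.card (graphs F) = 6 := by
  rw [← (range_D4 (F := F)).1, ← graphs_map.1]
  refine Nat.card_congr ?_
  refine Equiv.ofBijective (fun θ => (⟨P θ.1, θ.1, θ.2, rfl⟩ : (graphs F).map P)) ⟨?_, ?_⟩
  · intro θ θ' h
    refine Subtype.ext (mul_inv_eq_one.1 (graph_eq_one (mul_mem θ.2 (inv_mem θ'.2)) ?_))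
    rw [map_mul, map_inv, mul_inv_eq_one]
    exact congrArg Subtype.val h
  · rintro ⟨_, θ, hθ, rfl⟩
    exact ⟨⟨θ, hθ⟩, rfl⟩

/-- The diagonal automorphisms in the stabiliser. -/
def dia : (Fin chevD4.rank → Fˣ) →* ↥(stabUV chevD4 F) :=
  (Checked.diagHom C).codRestrict _ (Checked.diagHom_mem C)

/-- The field automorphisms in the stabiliser. -/
noncomputable def fld : RingAut F →* ↥(stabUV chevD4 F) :=
  (Checked.fieldHom C).codRestrict _ (Checked.fieldHom_mem C)

theorem dia_pos (c : Fin chevD4.rank → Fˣ) (i : Fin chevD4.rank) (t : F) :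
    (dia c).1 (Checked.xgG C (chevD4.simple i) t) =
      Checked.xgG C (chevD4.simple i) ((c i : F) * t) ∧
    (dia c).1 (Checked.xgG C (chevD4.neg (chevD4.simple i)) t) =
      Checked.xgG C (chevD4.neg (chevD4.simple i)) ((c i : F)⁻¹ * t) :=
  ⟨Subtype.ext (D4.checked.diagHom_pos c i t), Subtype.ext (D4.checked.diagHom_neg c i t)⟩

theorem fld_xgG (τ : RingAut F) {r : ℕ} (hr : r < chevD4.nroots) (t : F) :
    (fld τ).1 (Checked.xgG C r t) = Checked.xgG C r (τ t) :=
  Subtype.ext (D4.checked.fieldAut_xgG τ hr t)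

theorem simple_lt' (i : Fin chevD4.rank) : chevD4.simple i < chevD4.nroots ∧
    chevD4.neg (chevD4.simple i) < chevD4.nroots :=
  have h := D4.checked.root.simple_lt i i.2
  ⟨h, D4.checked.root.neg_lt _ h⟩

theorem graph_fld {γ : ↥(stabUV chevD4 F)} (hγ : γ ∈ graphs F) (τ : RingAut F) :
    fld τ * γ = γ * fld τ :=
  Subtype.ext (D4.checked.aut_ext fun i t => by
    obtain ⟨h1, h2⟩ := simple_lt' i
    obtain ⟨h3, h4⟩ := simple_lt' (P γ i)
    constructor
    · rw [Subgroup.coe_mul, Subgroup.coe_mul, MulAut.mul_apply, MulAut.mul_apply,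
        (spec_graph hγ i t).1, fld_xgG τ h3, fld_xgG τ h1, (spec_graph hγ i _).1]
    · rw [Subgroup.coe_mul, Subgroup.coe_mul, MulAut.mul_apply, MulAut.mul_apply,
        (spec_graph hγ i t).2, fld_xgG τ h4, fld_xgG τ h2, (spec_graph hγ i _).2])

theorem graph_dia {γ : ↥(stabUV chevD4 F)} (hγ : γ ∈ graphs F) (c : Fin chevD4.rank → Fˣ) :
    γ * dia c = dia (fun i => c ((P γ).symm i)) * γ :=
  Subtype.ext (D4.checked.aut_ext fun i t => by
    constructor
    · rw [Subgroup.coe_mul, Subgroup.coe_mul, MulAut.mul_apply, MulAut.mul_apply, (dia_pos c i t).1,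
        (spec_graph hγ i _).1, (spec_graph hγ i t).1, (dia_pos _ _ t).1, Equiv.symm_apply_apply]
    · rw [Subgroup.coe_mul, Subgroup.coe_mul, MulAut.mul_apply, MulAut.mul_apply, (dia_pos c i t).2,
        (spec_graph hγ i _).2, (spec_graph hγ i t).2, (dia_pos _ _ t).2, Equiv.symm_apply_apply])

theorem fld_dia (τ : RingAut F) (c : Fin chevD4.rank → Fˣ) :
    fld τ * dia c = dia (fun i => Units.map (τ : F →* F) (c i)) * fld τ :=
  Subtype.ext (D4.checked.aut_ext fun i t => by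
    obtain ⟨h1, h2⟩ := simple_lt' i
    constructor
    · rw [Subgroup.coe_mul, Subgroup.coe_mul, MulAut.mul_apply, MulAut.mul_apply, (dia_pos c i t).1,
        fld_xgG τ h1, fld_xgG τ h1, (dia_pos _ i _).1, map_mul]
      rfl
    · rw [Subgroup.coe_mul, Subgroup.coe_mul, MulAut.mul_apply, MulAut.mul_apply, (dia_pos c i t).2,
        fld_xgG τ h2, fld_xgG τ h2, (dia_pos _ i _).2, map_mul, map_inv₀]
      rfl)

theorem conn : connCheck chevD4 = true ∧ 0 < chevD4.rank := conn_all (by simp)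

theorem ker_P (c : Fin chevD4.rank → Fˣ) (τ : RingAut F) : P (dia c * fld τ) = 1 :=
  (D4.checked.ker_nodePerm en_D4 conn.1 conn.2 _).2 ⟨c, τ, rfl⟩

theorem exists_decomp (θ : ↥(stabUV chevD4 F)) :
    ∃ γ ∈ graphs F, ∃ c τ, θ = dia c * γ * fld τ := by
  obtain ⟨γ, hγ, hP⟩ := exists_graph θ
  obtain ⟨c, τ, e⟩ := (D4.checked.ker_nodePerm en_D4 conn.1 conn.2 (γ⁻¹ * θ)).1 (by
    rw [map_mul, map_inv, hP, inv_mul_cancel])
  refine ⟨γ, hγ, fun i => c ((P γ).symm i), τ, ?_⟩
  rw [← graph_dia hγ c, mul_assoc, show dia c * fld τ = γ⁻¹ * θ from Subtype.ext e.symm,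
    mul_inv_cancel_left]

local notation "o" => toOut chevD4 F

theorem out_dia_eq_one (c : Fin chevD4.rank → Fˣ) :
    o (dia c) = 1 ↔ c ∈ (Checked.cartanMap (F := F) C).range := by
  rw [D4.checked.ker_toOut]
  constructor
  · rintro ⟨c', e⟩
    have e' : Checked.diagHom C (Checked.cartanMap C c') * Checked.fieldHom C (1 : RingAut F) =
        Checked.diagHom C c * Checked.fieldHom C 1 := by
      rw [map_one, mul_one, mul_one]; exact e
    exact ⟨c', (D4.checked.diagField_injective en_D4 _ _ _ _ conn.2 e').1⟩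
  · rintro ⟨c', rfl⟩
    exact ⟨c', rfl⟩

theorem ker_le {θ : ↥(stabUV chevD4 F)} (h : o θ = 1) : P θ = 1 :=
  D4.checked.ker_toOut_le en_D4 conn.1 conn.2 h

theorem graph_of_out {γ : ↥(stabUV chevD4 F)} (hγ : γ ∈ graphs F) (c : Fin chevD4.rank → Fˣ)
    (h : o γ = o (dia c)) : γ = 1 := by
  refine graph_eq_one hγ ?_
  have h1 := ker_le (θ := γ⁻¹ * dia c) (by rw [map_mul, map_inv, h, inv_mul_cancel])
  have h2 := ker_P (F := F) c 1
  rw [map_one, mul_one] at h2
  rwa [map_mul, h2, mul_one, map_inv, inv_eq_one] at h1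

variable (F) in
/-- The diagonal and graph classes. -/
def dg : Subgroup (Cfsg.Out ↥(chevD4.group F)) where
  carrier := {x | ∃ c, ∃ γ ∈ graphs F, x = o (dia c) * o γ}
  one_mem' := ⟨1, 1, one_mem _, by simp⟩
  mul_mem' := by
    rintro _ _ ⟨c, γ, hγ, rfl⟩ ⟨c', γ', hγ', rfl⟩
    refine ⟨c * fun i => c' ((P γ).symm i), γ * γ', mul_mem hγ hγ', ?_⟩
    simp only [← map_mul]
    congr 1
    rw [map_mul dia, mul_assoc, ← mul_assoc γ, graph_dia hγ]
    simp only [mul_assoc]
  inv_mem' := by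
    rintro _ ⟨c, γ, hγ, rfl⟩
    refine ⟨fun i => c⁻¹ ((P γ⁻¹).symm i), γ⁻¹, inv_mem hγ, ?_⟩
    rw [← map_mul, ← map_inv, ← map_mul, ← graph_dia (inv_mem hγ), mul_inv_rev, map_inv]

theorem dia_mem (c : Fin chevD4.rank → Fˣ) : o (dia c) ∈ dg F := ⟨c, 1, one_mem _, by simp⟩

theorem graph_mem {γ : ↥(stabUV chevD4 F)} (hγ : γ ∈ graphs F) : o γ ∈ dg F :=
  ⟨1, γ, hγ, by simp⟩

/-- `Out` splits off the field automorphisms once they centralise the diagonal classes. -/
theorem out_split {p f : ℕ} [Fact p.Prime] (hf : 1 ≤ f) (hF : Fintype.card F = p ^ f)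
    (hfix : ∀ (τ : RingAut F) (c : Fin chevD4.rank → Fˣ),
      (fun i => Units.map (τ : F →* F) (c i)) * c⁻¹ ∈ (Checked.cartanMap (F := F) C).range) :
    Nonempty (Cfsg.Out ↥(chevD4.group F) ≃* ↥(dg F) × Multiplicative (ZMod f)) := by
  haveI : NeZero f := ⟨by omega⟩
  haveI : CharP F p := charP_of_card_eq_prime_pow (R := F) (f := f) hF
  obtain ⟨e⟩ := Cfsg.Agent.Lib.AutPSL.ringAut_equiv (F := F) hf hF
  set σ : RingAut F := e.symm (.ofAdd 1)
  have hσp : ∀ j : ℕ, σ ^ j = e.symm (.ofAdd (j : ZMod f)) := fun j => by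
    rw [← map_pow, ← ofAdd_nsmul, nsmul_one]
  refine prod_of_section (dg F) (o (fld σ)) ?_ ?_ (fun z => ?_) fun j hj hjm => ?_
  · rw [← map_pow, ← map_pow, hσp, ZMod.natCast_self]
    simp
  · rintro _ ⟨c, γ, hγ, rfl⟩
    refine Commute.mul_right ?_ ?_
    · show _ * _ = _ * _
      rw [← map_mul, fld_dia, map_mul]
      congr 1
      rw [← mul_inv_eq_one, ← map_inv, ← map_mul, ← map_inv dia, ← map_mul, out_dia_eq_one]
      exact hfix σ c
    · show _ * _ = _ * _
      rw [← map_mul, graph_fld hγ, map_mul]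
  · obtain ⟨θ, rfl⟩ := D4.checked.toOut_surjective (F := F) p (by simp) z
    obtain ⟨γ, hγ, c, τ, rfl⟩ := exists_decomp θ
    refine ⟨o (dia c) * o γ, ⟨c, γ, hγ, rfl⟩, (e τ).toAdd.val, ?_⟩
    rw [← map_pow, ← map_pow, hσp, ZMod.natCast_zmod_val, ofAdd_toAdd, e.symm_apply_apply,
      map_mul, map_mul]
  · obtain ⟨c, γ, hγ, he⟩ := hjm
    rw [← map_pow, ← map_mul] at he
    have h1 : o ((dia c * γ)⁻¹ * fld (σ ^ j)) = 1 := by
      rw [map_mul, map_inv, map_pow fld, he, inv_mul_cancel]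
    have hP1 : P (fld (σ ^ j)) = 1 := by
      simpa using ker_P (F := F) 1 (σ ^ j)
    have hPγ : P γ = 1 := by
      have := ker_le h1
      have hc := ker_P (F := F) c 1
      rw [map_one, mul_one] at hc
      rwa [map_mul, map_inv, map_mul, hc, hP1, one_mul, mul_one, inv_eq_one] at this
    rw [graph_eq_one hγ hPγ, mul_one] at h1
    obtain ⟨c', e'⟩ := (D4.checked.ker_toOut _).1 h1
    have e2 : Checked.diagHom C (c⁻¹) * Checked.fieldHom C (σ ^ j) =
        Checked.diagHom C (Checked.cartanMap C c') * Checked.fieldHom C 1 := by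
      rw [map_one, mul_one, map_inv]
      exact e'.symm
    have h3 := (D4.checked.diagField_injective en_D4 _ _ _ _ conn.2 e2).2
    rw [hσp, MulEquiv.map_eq_one_iff, ofAdd_eq_one, ZMod.natCast_eq_zero_iff] at h3
    exact Nat.eq_zero_of_dvd_of_lt h3 hj

/-- In even characteristic every diagonal class is trivial. -/
theorem out_D4_two {f : ℕ} (hf : 1 ≤ f) (hF : Fintype.card F = 2 ^ f) :
    Nonempty (Cfsg.Out ↥(chevD4.group F) ≃* Equiv.Perm (Fin 3) × Multiplicative (ZMod f)) := by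
  classical
  haveI : Fact (Nat.Prime 2) := ⟨Nat.prime_two⟩
  have hk : Nat.card (Checked.cartanMap (F := F) C).ker = 1 := by
    rw [D4.checked.card_ker_cartanMap smith_D4, show D4.fast.l = 4 from rfl, hF]
    have hodd : (2 ^ f - 1).gcd 2 = 1 := by
      refine Nat.coprime_two_right.2 ?_
      rw [Nat.odd_iff]
      obtain ⟨g, rfl⟩ : ∃ g, f = g + 1 := ⟨f - 1, by omega⟩
      rw [pow_succ]
      have := Nat.one_le_two_pow (n := g)
      omega
    simp [Finset.prod_range_succ, hodd]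
  have htop : ∀ c, c ∈ (Checked.cartanMap (F := F) C).range := fun c =>
    Finite.injective_iff_surjective.1
      ((MonoidHom.ker_eq_bot_iff _).1 (Subgroup.card_eq_one.1 hk)) c
  obtain ⟨e⟩ := out_split hf hF fun τ c => htop _
  have hK : dg F = (graphs F).map (o) := by
    refine le_antisymm ?_ ?_
    · rintro _ ⟨c, γ, hγ, rfl⟩
      rw [(out_dia_eq_one c).2 (htop c), one_mul]
      exact ⟨γ, hγ, rfl⟩
    · rintro _ ⟨γ, hγ, rfl⟩
      exact graph_mem hγ
  have e1 : ↥(graphs F) ≃* ↥((graphs F).map (o)) :=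
    MulEquiv.ofBijective ((toOut chevD4 F).subgroupMap (graphs F))
      ⟨(injective_iff_map_eq_one _).2 fun γ h => Subtype.ext (graph_of_out γ.2 1 (by
          rw [map_one, map_one]; exact congrArg Subtype.val h)),
        (toOut chevD4 F).subgroupMap_surjective _⟩
  let α := {i : Fin chevD4.rank // i ≠ mid}
  have hfix : ∀ (θ : ↥(stabUV chevD4 F)) (i : Fin chevD4.rank), P θ i ≠ mid ↔ i ≠ mid := fun θ i =>
    not_congr ⟨fun h => (P θ).injective (h.trans (graphs_map.2 θ).symm),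
      fun h => h ▸ graphs_map.2 θ⟩
  let φ : ↥(graphs F) →* Equiv.Perm α :=
    MonoidHom.mk' (fun γ => (P γ.1).subtypePerm (hfix γ.1)) fun a b => by
      rw [Equiv.Perm.subtypePerm_mul]
      simp
  have hφ : Function.Injective φ := (injective_iff_map_eq_one _).2 fun γ h => by
    refine Subtype.ext (graph_eq_one γ.2 (Equiv.ext fun i => ?_))
    by_cases hi : i = mid
    · rw [hi, graphs_map.2]; rfl
    · exact congrArg Subtype.val (Equiv.congr_fun h ⟨i, hi⟩)
  have hα : Fintype.card α = 3 := by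
    show Fintype.card {i : Fin chevD4.rank // i ≠ mid} = 3
    rw [Fintype.card_subtype_compl, Fintype.card_subtype_eq, Fintype.card_fin]
    rfl
  have e2 : ↥(graphs F) ≃* Equiv.Perm α :=
    MulEquiv.ofBijective φ ((Nat.bijective_iff_injective_and_card _).2
      ⟨hφ, by rw [card_graphs, Nat.card_perm, Nat.card_eq_fintype_card, hα]; rfl⟩)
  exact ⟨e.trans (MulEquiv.prodCongr (((MulEquiv.subgroupCongr hK).trans e1.symm).trans
    (e2.trans (Fintype.equivFinOfCardEq hα).permCongrHom)) (MulEquiv.refl _))⟩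

/-! ### Odd characteristic -/

/-- The squares. -/
abbrev sqr (F : Type u) [Field F] : Subgroup Fˣ := (powMonoidHom 2 : Fˣ →* Fˣ).range

/-- The two square classes that detect the inner diagonal automorphisms. -/
def chi (F : Type u) [Field F] :
    (Fin chevD4.rank → Fˣ) →* (Fˣ ⧸ sqr F) × (Fˣ ⧸ sqr F) where
  toFun c := (QuotientGroup.mk (c ⟨0, by decide⟩ * c ⟨2, by decide⟩),
    QuotientGroup.mk (c ⟨0, by decide⟩ * c ⟨3, by decide⟩))
  map_one' := by simp
  map_mul' a b := by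
    simp only [Pi.mul_apply, Prod.mk_mul_mk, ← QuotientGroup.mk_mul, mul_mul_mul_comm]

theorem cartan_even : ∀ i < 4, ∀ j ∈ [2, 3],
    (D4.fast.A i (D4.fast.sp 0) + D4.fast.A i (D4.fast.sp j)) % 2 = 0 := by
  decide +kernel

theorem chi_cartan (c : Fin chevD4.rank → Fˣ) : chi F (Checked.cartanMap C c) = 1 := by
  have key : ∀ (j : ℕ) (hj : j < chevD4.rank), j ∈ [2, 3] →
      (QuotientGroup.mk (Checked.cartanMap C c ⟨0, by decide⟩ * Checked.cartanMap C c ⟨j, hj⟩) :
        Fˣ ⧸ sqr F) = 1 := by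
    intro j hj hj2
    show QuotientGroup.mk ((∏ i : Fin chevD4.rank, c i ^ D4.fast.A i (D4.fast.sp 0)) *
      (∏ i : Fin chevD4.rank, c i ^ D4.fast.A i (D4.fast.sp j))) = _
    rw [← Finset.prod_mul_distrib, QuotientGroup.eq_one_iff]
    refine Subgroup.prod_mem _ fun i _ => ?_
    obtain ⟨k, hk⟩ := Int.dvd_of_emod_eq_zero (cartan_even i i.2 j hj2)
    rw [← zpow_add, hk, mul_comm, zpow_mul]
    exact ⟨c i ^ k, by rw [powMonoidHom_apply]; norm_cast⟩
  exact Prod.ext (key 2 (by decide) (by simp)) (key 3 (by decide) (by simp))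

theorem card_sqr (hodd : Odd (Fintype.card F)) : Nat.card (Fˣ ⧸ sqr F) = 2 := by
  show (sqr F).index = 2
  rw [IsCyclic.index_powMonoidHom_range, Nat.card_units, Nat.card_eq_fintype_card]
  obtain ⟨k, hk⟩ := hodd
  rw [hk, Nat.add_sub_cancel, mul_comm, Nat.gcd_mul_left_left]

theorem chi_surjective : Function.Surjective (chi F) := fun x => by
  classical
  obtain ⟨⟨a⟩, ⟨b⟩⟩ := x
  refine ⟨fun i => if i.1 = 2 then a else if i.1 = 3 then b else 1, ?_⟩
  show (QuotientGroup.mk ((1 : Fˣ) * a), QuotientGroup.mk ((1 : Fˣ) * b)) = _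
  rw [one_mul, one_mul]
  rfl

theorem range_eq_ker (hodd : Odd (Fintype.card F)) :
    (Checked.cartanMap (F := F) C).range = (chi F).ker := by
  refine Subgroup.eq_of_le_of_card_ge ?_ (le_of_eq ?_)
  · rintro _ ⟨c, rfl⟩
    exact chi_cartan c
  have h1 := Subgroup.card_mul_index (chi F).ker
  have h2 := Subgroup.card_mul_index (Checked.cartanMap (F := F) C).ker
  rw [Subgroup.index_ker, MonoidHom.range_eq_top.2 chi_surjective, Subgroup.card_top,
    Nat.card_prod, card_sqr hodd] at h1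
  have hk : Nat.card (Checked.cartanMap (F := F) C).ker = 4 := by
    rw [D4.checked.card_ker_cartanMap smith_D4, show D4.fast.l = 4 from rfl]
    obtain ⟨k, hk⟩ := hodd
    rw [hk, Nat.add_sub_cancel]
    simp [Finset.prod_range_succ]
  rw [Subgroup.index_ker, hk, ← h1] at h2
  omega

/-- The classes of the nodes differ. -/
theorem node_eq {g : Fˣ ⧸ sqr F} (hg : g ≠ 1) {k k' : Fin chevD4.rank} {a : Fˣ}
    (ha : QuotientGroup.mk a = g) (h : chi F (Pi.mulSingle k a) = chi F (Pi.mulSingle k' a)) :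
    k = k' := by
  have key : ∀ k : Fin chevD4.rank, chi F (Pi.mulSingle k a) =
      (if k.1 = 0 ∨ k.1 = 2 then g else 1, if k.1 = 0 ∨ k.1 = 3 then g else 1) := by
    intro k
    rcases k with ⟨k, hk⟩
    have hk' : k < 4 := hk
    interval_cases k <;> simp [chi, Pi.mulSingle_apply, Fin.ext_iff, ha]
  rw [key, key, Prod.ext_iff] at h
  rcases k with ⟨k, hk⟩
  rcases k' with ⟨k', hk'⟩
  have h4 : k < 4 := hk
  have h4' : k' < 4 := hk'
  refine Fin.ext ?_
  interval_cases k <;> interval_cases k' <;> simp [hg, Ne.symm hg] at h ⊢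

theorem out_D4_odd {p f : ℕ} [Fact p.Prime] (hf : 1 ≤ f) (hF : Fintype.card F = p ^ f) (hp : p ≠ 2) :
    Nonempty (Cfsg.Out ↥(chevD4.group F) ≃* Equiv.Perm (Fin 4) × Multiplicative (ZMod f)) := by
  classical
  have hodd : Odd (Fintype.card F) := by
    rw [hF]; exact ((Fact.out : p.Prime).odd_of_ne_two hp).pow
  have hR := range_eq_ker (F := F) hodd
  obtain ⟨e⟩ := out_split hf hF fun τ c => by
    have hsq : ∀ u : Fˣ, (QuotientGroup.mk (Units.map (τ : F →* F) u * u⁻¹) : Fˣ ⧸ sqr F) = 1 := by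
      intro u
      rw [QuotientGroup.eq_one_iff]
      have hτ : ∀ v : Fˣ, v ∈ sqr F → Units.map (τ : F →* F) v ∈ sqr F := by
        rintro _ ⟨w, rfl⟩
        exact ⟨Units.map (τ : F →* F) w, by simp⟩
      by_cases hu : u ∈ sqr F
      · exact mul_mem (hτ u hu) (inv_mem hu)
      · refine (Subgroup.mul_mem_iff_of_index_two (show (sqr F).index = 2 from card_sqr hodd)).2
          (iff_of_false (fun h => hu ?_) fun h => hu (by simpa using h))
        obtain ⟨w, hw⟩ := h
        refine ⟨Units.map (τ.symm : F →* F) w, Units.ext ?_⟩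
        have hw' := congrArg (fun z : Fˣ => τ.symm (z : F)) hw
        simp at hw'
        simpa using hw'
    rw [hR, MonoidHom.mem_ker]
    simp only [chi, MonoidHom.coe_mk, OneHom.coe_mk, Pi.mul_apply, Pi.inv_apply]
    rw [QuotientGroup.mk_mul, hsq, hsq, QuotientGroup.mk_mul, hsq, hsq, one_mul]
    rfl
  -- the four point action
  let V : (Fin chevD4.rank → Fˣ) →* Cfsg.Out ↥(chevD4.group F) := (toOut chevD4 F).comp dia
  let H : Subgroup (Cfsg.Out ↥(chevD4.group F)) := (graphs F).map (o)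
  have hV : Nat.card V.range = 4 := by
    rw [← Subgroup.index_ker, show V.ker = (chi F).ker from
      hR ▸ Subgroup.ext fun c => out_dia_eq_one c, Subgroup.index_ker,
      MonoidHom.range_eq_top.2 chi_surjective, Subgroup.card_top, Nat.card_prod, card_sqr hodd]
  have hdis : ∀ x ∈ H, x ∈ V.range → x = 1 := by
    rintro _ ⟨γ, hγ, rfl⟩ ⟨c, hc⟩
    rw [graph_of_out hγ c hc.symm, map_one]
  have hH : Nat.card H = 6 := by
    rw [← card_graphs (F := F)]
    exact (Nat.card_congr (Equiv.ofBijective ((toOut chevD4 F).subgroupMap (graphs F))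
      ⟨(injective_iff_map_eq_one _).2 fun γ h => Subtype.ext (graph_of_out γ.2 1 (by
          rw [map_one, map_one]; exact congrArg Subtype.val h)),
        (toOut chevD4 F).subgroupMap_surjective _⟩)).symm
  have hK : Nat.card (dg F) = 24 := by
    let g : V.range × H → dg F := fun q => ⟨q.1.1 * q.2.1, mul_mem
      (by obtain ⟨c, hc⟩ := q.1.2; exact hc ▸ dia_mem c)
      (by obtain ⟨γ, hγ, hc⟩ := q.2.2; exact hc ▸ graph_mem hγ)⟩
    have hg : Function.Bijective g := by
      refine ⟨fun q q' h => ?_, ?_⟩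
      · have h1 : q.1.1 * q.2.1 = q'.1.1 * q'.2.1 := congrArg Subtype.val h
        have h2 : q'.1.1⁻¹ * q.1.1 = q'.2.1 * q.2.1⁻¹ := by
          rw [eq_mul_inv_iff_mul_eq, mul_assoc, h1, inv_mul_cancel_left]
        have h3 := hdis _ (h2 ▸ mul_mem q'.2.2 (inv_mem q.2.2))
          (mul_mem (inv_mem q'.1.2) q.1.2)
        rw [inv_mul_eq_one] at h3
        exact Prod.ext (Subtype.ext h3.symm) (Subtype.ext (by rwa [← h3, mul_right_inj] at h1))
      · rintro ⟨_, c, γ, hγ, rfl⟩
        exact ⟨(⟨_, c, rfl⟩, ⟨_, γ, hγ, rfl⟩), rfl⟩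
    rw [← Nat.card_eq_of_bijective g hg, Nat.card_prod, hV, hH]
  have hle : H ≤ dg F := by
    rintro _ ⟨γ, hγ, rfl⟩
    exact graph_mem hγ
  haveI : Finite (dg F) := Nat.finite_of_card_ne_zero (by omega)
  have hcore : (H.subgroupOf (dg F)).normalCore = ⊥ := by
    rw [Subgroup.eq_bot_iff_forall]
    intro x hx
    have hxH : x.1 ∈ H := Subgroup.normalCore_le (H.subgroupOf (dg F)) hx
    obtain ⟨γ, hγ, hxγ⟩ := id hxH
    have hfix : ∀ c, chi F (fun i => c ((P γ).symm i)) = chi F c := by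
      intro c
      have h1 : o (dia c) * x.1 * (o (dia c))⁻¹ ∈ H := hx ⟨_, dia_mem c⟩
      set d := fun i => c ((P γ).symm i) with hd
      have h2 : o (dia c) * (o (dia d))⁻¹ = o (dia c) * x.1 * (o (dia c))⁻¹ * x.1⁻¹ := by
        have e : o γ * o (dia c) = o (dia d) * o γ := by
          rw [← map_mul, graph_dia hγ, map_mul]
        rw [← hxγ, eq_mul_inv_of_mul_eq e.symm]
        group
      have h3 := hdis _ (h2 ▸ mul_mem h1 (inv_mem hxH))
        (mul_mem ⟨c, rfl⟩ (inv_mem ⟨d, rfl⟩))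
      rw [mul_inv_eq_one] at h3
      replace h3 : o (dia c) = o (dia d) := h3
      have h4 : c * d⁻¹ ∈ (Checked.cartanMap (F := F) C).range := by
        rw [← out_dia_eq_one, map_mul, map_mul, map_inv, map_inv, h3, mul_inv_cancel]
      rw [hR, MonoidHom.mem_ker, map_mul, map_inv, mul_inv_eq_one] at h4
      exact h4.symm
    haveI : Nontrivial (Fˣ ⧸ sqr F) :=
      (Finite.one_lt_card_iff_nontrivial).1 (by rw [card_sqr hodd]; norm_num)
    obtain ⟨g, hg⟩ := exists_ne (1 : Fˣ ⧸ sqr F)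
    obtain ⟨a, ha⟩ := QuotientGroup.mk_surjective g
    have h1 : γ = 1 := graph_eq_one hγ (Equiv.ext fun k => (node_eq hg ha (by
      show chi F (Pi.mulSingle k a) = _
      rw [← hfix (Pi.mulSingle k a)]
      congr 1
      funext i
      rw [Pi.mulSingle_apply, Pi.mulSingle_apply]
      by_cases h : i = P γ k
      · rw [if_pos h, if_pos (by rw [h, Equiv.symm_apply_apply])]
      · rw [if_neg h, if_neg (fun h' => h (by rw [← h', Equiv.apply_symm_apply]))])).symm)
    exact Subtype.ext (by rw [← hxγ, h1, map_one]; rfl)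
  have hi : (H.subgroupOf (dg F)).index = 4 := by
    have h1 := Subgroup.card_mul_index (H.subgroupOf (dg F))
    rw [Nat.card_congr (Subgroup.subgroupOfEquivOfLe hle).toEquiv, hH, hK] at h1
    omega
  obtain ⟨e2⟩ := perm_of_core (H.subgroupOf (dg F)) hi (by rw [hK]; rfl) hcore
  exact ⟨e.trans (MulEquiv.prodCongr e2 (MulEquiv.refl _))⟩

end Cfsg.Agent.Lib.AutOmega.OutFour
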