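import Cfsg.Agent.Lib.AutOmega.Shapes
import Cfsg.Agent.Lib.AutOmega.Frob

/-!
The outer automorphism group of `PΩ⁻`.
-/

set_option autoImplicit false

namespace Cfsg.Agent.Lib.AutOmega

open QuadraticMap hiding proj
open Cfsg.Agent.Lib.Classical.Quad Cfsg.Agent.Lib.Classical.QuadOmega Cfsg.Agent.Lib.Classical.QuadF2
open Cfsg.Agent.Lib.AutOmegaOdd (G Semi)

universe u

variable {F : Type u} [Field F] [Fintype F]

section gen

variable {ι : Type} [Fintype ι] [DecidableEq ι] {f : (ι → F) → F} {Q : QuadraticForm F (ι → F)}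
  (hf : ∀ v, Q v = f v) (hH : Hyp Q)

include hH in
theorem outMk_surjective : Function.Surjective (outMk hf hH.good) :=
  (QuotientGroup.mk'_surjective _).comp (act_surjective hf hH.good hH)

/-- The field automorphism of an automorphism. -/
noncomputable def sigAut : MulAut (Cfsg.POmega F f) →* (F ≃+* F) :=
  (act hf hH.good).liftOfSurjective (act_surjective hf hH.good hH) ⟨sigmaHom Q, fun ψ hψ => by
    obtain ⟨c, rfl⟩ := (act_eq_one_iff hf hH.good).1 hψ
    rfl⟩

theorem sigAut_act (ψ : Semi Q) : sigAut hf hH (act hf hH.good ψ) = ψ.σ :=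
  MonoidHom.liftOfRightInverse_comp_apply _ _ _ _ ψ

/-- The field automorphism of an outer automorphism. -/
noncomputable def sigOut : Cfsg.Out (Cfsg.POmega F f) →* (F ≃+* F) :=
  QuotientGroup.lift _ (sigAut hf hH) fun β hβ => by
    obtain ⟨ψ, rfl⟩ := act_surjective hf hH.good hH β
    obtain ⟨c, h, -, rfl⟩ := (act_mem_inn hf hH.good).1 hβ
    rw [MonoidHom.mem_ker, sigAut_act]
    simp

theorem sigOut_mk (ψ : Semi Q) : sigOut hf hH (outMk hf hH.good ψ) = ψ.σ := sigAut_act hf hH ψ

/-- An element is a power of the Frobenius class times a class of similitude. -/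
theorem out_decomp {n : ℕ} (hn : 1 ≤ n) {y : Cfsg.Out (Cfsg.POmega F f)}
    (ho : orderOf (sigOut hf hH y) = n) (hc : Nat.card (F ≃+* F) = n)
    (z : Cfsg.Out (Cfsg.POmega F f)) :
    ∃ (j : ℕ) (ψ : Semi Q), ψ.σ = 1 ∧ z = outMk hf hH.good ψ * y ^ j := by
  obtain ⟨j, hj⟩ := exists_pow_eq hn ho hc (sigOut hf hH z)
  obtain ⟨ψ, hψ⟩ := outMk_surjective hf hH (z * (y ^ j)⁻¹)
  refine ⟨j, ψ, ?_, by rw [hψ, inv_mul_cancel_right]⟩
  rw [← sigOut_mk hf hH ψ, hψ, map_mul, map_inv, map_pow, hj, mul_inv_cancel]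

end gen

/-! ### Characteristic two -/

theorem out_cyclic_two {n : ℕ} (hn : 1 ≤ n) (hF : Fintype.card F = 2 ^ n) {m : ℕ} (hm : 3 ≤ m)
    {a b : F} (hab : Aniso a b) :
    IsCyclic (Cfsg.Out (Cfsg.POmega F (Cfsg.quadFormMinus m F a b))) ∧
      Nat.card (Cfsg.Out (Cfsg.POmega F (Cfsg.quadFormMinus m F a b))) = 2 * n := by
  haveI : CharP F 2 := charP_of_card_eq_prime_pow (R := F) (f := n) hF
  have h2 : (2 : F) = 0 := by exact_mod_cast CharP.cast_eq_zero F 2
  have hf := fun v => minusQ_apply (F := F) m a b v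
  have hH : Hyp (minusQ m a b) := hyp_minus hab hm
  obtain ⟨ψ, ho, hc, x, hx, hpow⟩ := exists_frobSemi_two (m := m) hn hF hab
  have hQ : Nd (minusQ m a b) := hH.good.nd
  have hreg : Reg F ((Fin m ⊕ Fin m) ⊕ Fin 2 → F) := by
    refine Or.inr ?_
    simp [Module.finrank_pi, Fintype.card_sum]
    omega
  have hsieg : ∀ h : isoG (minusQ m a b), h ∈ siegelGroup (minusQ m a b) ↔ dick hQ h = 1 :=
    fun h => by rw [← commutator_eq hH.good, mem_commutator_iff_two hQ hreg h2]
  set y := outMk hf hH.good ψ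
  set r := outMk hf hH.good (ofIso _ (refl (minusQ m a b) x))
  have hyr : y ^ n = r := by rw [← map_pow, hpow]
  have hsq : ∀ c : F, c * c = 1 → c = 1 := fun c h => by
    have : (c - 1) * (c - 1) = 0 := by linear_combination h + (1 - c) * h2
    exact sub_eq_zero.1 (mul_self_eq_zero.1 this)
  have hr1 : r ≠ 1 := fun h => by
    obtain ⟨c, k, hk, e⟩ := (act_mem_inn hf hH.good).1 ((outMk_eq_one hf hH.good).1 h)
    have hH' := congrArg Semi.H e
    simp only [semi_mul_H, ofScalar_H, ofScalar_σ, ofIso_H, map_one, mul_one] at hH'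
    obtain rfl : c = 1 := Units.ext (hsq _ hH'.symm)
    rw [map_one, one_mul] at e
    rw [← ofIso_injective e, hsieg, dick_refl hQ hx] at hk
    exact absurd hk (by decide)
  have hrr : r * r = 1 := by
    rw [← map_mul, ← map_mul, refl_mul_self hx, map_one, map_one]
  have hker : ∀ φ : Semi (minusQ m a b), φ.σ = 1 →
      outMk hf hH.good φ = 1 ∨ outMk hf hH.good φ = r := by
    intro φ hφ
    obtain ⟨c, hc⟩ := FiniteField.isSquare_of_char_two
      (CharP.ringChar_of_prime_eq_zero Nat.prime_two (by exact_mod_cast h2)) φ.H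
    have hc0 : c ≠ 0 := fun h => φ.H0 (by rw [hc, h, mul_zero])
    obtain ⟨h, rfl⟩ := eq_scalar_iso hφ (c := Units.mk0 c hc0) hc
    rw [map_mul, outMk_scalar, one_mul]
    rcases Int.units_eq_one_or (dick hQ h) with d | d
    · exact Or.inl ((outMk_eq_one hf hH.good).2 ((act_mem_inn hf hH.good).2
        ⟨1, h, (hsieg h).2 d, by rw [map_one, one_mul]⟩))
    · refine Or.inr ?_
      rw [← mul_inv_eq_one, ← map_inv, ← map_mul, ← map_inv (ofIso _), ← map_mul, outMk_eq_one,
        act_mem_inn]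
      exact ⟨1, h * (refl _ x)⁻¹, (hsieg _).2 (by rw [map_mul, map_inv, d, dick_refl hQ hx]; decide),
        by rw [map_one, one_mul]⟩
  have hσy : sigOut hf hH y = ψ.σ := sigOut_mk hf hH ψ
  have hoy : orderOf y = 2 * n := by
    have hd : n ∣ orderOf y := by
      rw [← ho, ← hσy]; exact orderOf_map_dvd (sigOut hf hH) y
    obtain ⟨k, hk⟩ := hd
    have h2n : orderOf y ∣ 2 * n := orderOf_dvd_of_pow_eq_one (by rw [two_mul, pow_add, hyr, hrr])
    rw [hk, mul_comm 2 n, Nat.mul_dvd_mul_iff_left (by omega)] at h2n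
    rcases (Nat.dvd_prime Nat.prime_two).1 h2n with rfl | rfl
    · exfalso
      rw [mul_one] at hk
      exact hr1 (by rw [← hyr, ← hk, pow_orderOf_eq_one])
    · rw [hk, mul_comm]
  have htop : ∀ z, z ∈ Subgroup.zpowers y := fun z => by
    obtain ⟨j, φ, hφ, rfl⟩ := out_decomp hf hH hn (hσy ▸ ho) hc z
    refine mul_mem ?_ (pow_mem (Subgroup.mem_zpowers y) j)
    rcases hker φ hφ with e | e <;> rw [e]
    · exact one_mem _
    · rw [← hyr]; exact pow_mem (Subgroup.mem_zpowers y) n
  refine ⟨⟨⟨y, htop⟩⟩, ?_⟩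
  rw [← hoy, ← Nat.card_zpowers, (Subgroup.eq_top_iff' _).2 htop, Subgroup.card_top]

/-! ### Odd characteristic -/

variable {m : ℕ} {a b : F}

/-- A similitude acting diagonally is proper. -/
theorem del_shape (hab : Aniso a b) (hm : 1 ≤ m) (D : Dat (minusQ m a b))
    (hg0 : ∃ (ν : F) (w : Fin 2 → F), binQ a b w = ν ∧
      ∀ v, D.g0.map v = eMinus m ((fun i => ν * v (.inl (.inl i)), fun i => v (.inl (.inr i))),
        mulW a b w (fun j => v (.inr j))))
    {φ : Semi (minusQ m a b)} (hσ : φ.σ = 1)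
    (h : ∃ (t₁ t₂ : F) (w : Fin 2 → F), ∀ v, φ.map v = eMinus m
      ((fun i => t₁ * v (.inl (.inl i)), fun i => t₂ * v (.inl (.inr i))),
        mulW a b w (fun j => v (.inr j)))) :
    D.del φ = 1 := by
  have base : ∀ φ : Semi (minusQ m a b), φ.σ = 1 → mc _ φ = 1 →
      (∃ (t₁ t₂ : F) (w : Fin 2 → F), ∀ v, φ.map v = eMinus m
        ((fun i => t₁ * v (.inl (.inl i)), fun i => t₂ * v (.inl (.inr i))),
          mulW a b w (fun j => v (.inr j)))) → D.del φ = 1 := by
    rintro φ hσ hmc ⟨t₁, t₂, w, hmap⟩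
    obtain ⟨c, k, e⟩ := D.exists_decomp hσ
    rw [hmc, Dat.pw, if_pos rfl, mul_one] at e
    rw [e, D.del_mul (ofScalar_σ c) (ofIso_σ k), D.del_scalar, D.del_iso, one_mul]
    set u₁ := (c : F)⁻¹ * t₁
    set u₂ := (c : F)⁻¹ * t₂
    set w' := (c : F)⁻¹ • w with hw'
    have hk : ∀ v, k.1 v = eMinus m ((fun i => u₁ * v (.inl (.inl i)), fun i => u₂ * v (.inl (.inr i))),
        mulW a b w' (fun j => v (.inr j))) := fun v => by
      have h1 := hmap v
      rw [e, semi_mul_map, ofScalar_map, ofIso_map] at h1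
      rw [← one_smul F (k.1 v), ← inv_mul_cancel₀ c.ne_zero, mul_smul, h1, ← map_smul]
      congr 1
      refine Prod.ext (Prod.ext (funext fun i => (mul_assoc _ _ _).symm)
        (funext fun i => (mul_assoc _ _ _).symm)) ?_
      ext i
      rw [hw', mulW_apply, mulW_apply]
      fin_cases i <;> simp <;> ring
    have hQk := fun v => iso_Q k v
    have h12 : u₁ * u₂ = 1 := by
      have := hQk (eMinus m ((Pi.single ⟨0, hm⟩ 1, Pi.single ⟨0, hm⟩ 1), 0))
      rw [hk, minusQ_apply, minusQ_apply, minus_apply, minus_apply, splitQ_apply, splitQ_apply] at this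
      simpa [eMinus_xl, eMinus_xr, eMinus_z, Pi.single_apply, mulW_apply, binQ_apply] using this
    have hN : binQ a b w' = 1 := by
      have := hQk (eMinus m (0, ![1, 0]))
      rw [hk, minusQ_apply, minusQ_apply, minus_apply, minus_apply, splitQ_apply, splitQ_apply] at this
      simpa [eMinus_xl, eMinus_xr, eMinus_z, binQ_mulW, binQ_apply a b ![1, 0]] using this
    have hw0 : w' ≠ 0 := fun h0 => one_ne_zero (by rw [← hN, h0, map_zero])
    let kb : isoG (binQ a b) := ⟨LinearEquiv.ofInjectiveEndo (mulW a b w') (mulW_injective hab hw0),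
      fun z => by
        show binQ a b (mulW a b w' z) = _
        rw [binQ_mulW, hN, one_mul]⟩
    have hB : Nd (binQ a b) := nd_binQ hab
    have hkb : dick hB kb = 1 := by
      rw [dick_eq]
      by_cases hfix : ∃ z, z ≠ 0 ∧ mulW a b w' z = z
      · obtain ⟨z, hz0, hz⟩ := hfix
        have hw1 : w' - ![1, 0] = 0 := by
          by_contra hne
          refine hz0 (mulW_injective hab hne (?_ : mulW a b (w' - ![1, 0]) z = mulW a b (w' - ![1, 0]) 0))
          rw [map_zero, mulW_apply]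
          rw [mulW_apply] at hz
          have e0 := congrFun hz 0
          have e1 := congrFun hz 1
          simp at e0 e1
          ext i; fin_cases i <;> simp
          · linear_combination e0
          · linear_combination e1
        rw [sub_eq_zero] at hw1
        have : fixS kb = ⊤ := eq_top_iff.2 fun z _ => mem_fixS.2 (by
          show mulW a b w' z = z
          rw [hw1, mulW_apply]
          ext i; fin_cases i <;> simp)
        rw [this, finrank_top, ← two_mul, pow_mul]
        simp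
      · have : fixS kb = ⊥ := (Submodule.eq_bot_iff _).2 fun z hz => by
          by_contra h0
          exact hfix ⟨z, h0, mem_fixS.1 hz⟩
        rw [this, finrank_bot, add_zero, Module.finrank_fin_fun]
        rfl
    have hu₁ : u₁ ≠ 0 := fun h0 => zero_ne_one (by rw [← h12, h0, zero_mul])
    have hkeq : k = mapIso (eMinus m) (minus_eMinus m)
        (scaleHom m (binQ a b) (fun _ => Units.mk0 u₁ hu₁) * liftHom m (binQ a b) kb) := by
      refine iso_ext fun v => ?_
      obtain ⟨p, rfl⟩ := (eMinus m).surjective v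
      rw [hk, mapIso_apply, Subgroup.coe_mul, LinearEquiv.mul_apply, scaleHom_apply]
      congr 1
      refine Prod.ext (Prod.ext (funext fun i => ?_) (funext fun i => ?_)) rfl
      · simp [eMinus_xl, liftHom]
      · simp [eMinus_xr, liftHom, eq_inv_of_mul_eq_one_right h12]
    rw [hkeq, (invs_mapIso (eMinus m) (minus_eMinus m) (nd_splitQ hB m) D.nd D.h2 _).1, map_mul,
      (invs_scaleHom hB D.h2 m _).1, (invs_liftHom hB D.h2 m kb).1, hkb, one_mul]
  rcases Int.units_eq_one_or (mc _ φ) with hmc | hmc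
  · exact base φ hσ hmc h
  · have h1 := base (φ * D.g0) (by rw [semi_mul_σ, hσ, D.g0σ, one_mul])
      (by rw [map_mul, hmc, D.mc_g0]; rfl) (by
        obtain ⟨t₁, t₂, w, hmap⟩ := h
        obtain ⟨ν, w₀, -, hmap0⟩ := hg0
        refine ⟨t₁ * ν, t₂, mulW a b w w₀, fun v => ?_⟩
        rw [semi_mul_map, hmap0, hmap]
        congr 1
        refine Prod.ext (Prod.ext (funext fun i => ?_) (funext fun i => ?_)) ?_
        · simp [eMinus_xl, mul_assoc]
        · simp [eMinus_xr]
        · simp only [eMinus_z]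
          ext i
          simp only [mulW_apply]
          fin_cases i <;> simp <;> ring)
    rwa [D.del_mul hσ D.g0σ, D.del_g0, mul_one] at h1

section grp

variable {X : Type*} [Group X]

theorem rigid_dihedral {n : ℕ} (hn : Odd n) (θ : MulAut (DihedralGroup 4)) (h : θ ^ n = 1) :
    θ = 1 := by
  have hor : orderOf (θ (DihedralGroup.r 1)) = 4 := by
    rw [MulEquiv.orderOf_eq, DihedralGroup.orderOf_r_one]
  have hr : ∃ i : ZMod 4, θ (DihedralGroup.r 1) = DihedralGroup.r i ∧ (i = 1 ∨ i = 3) := by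
    rcases e : θ (DihedralGroup.r 1) with i | i
    · refine ⟨i, rfl, ?_⟩
      rw [e, DihedralGroup.orderOf_r] at hor
      exact (show ∀ i : ZMod 4, 4 / Nat.gcd 4 i.val = 4 → i = 1 ∨ i = 3 by decide) i hor
    · rw [e, DihedralGroup.orderOf_sr] at hor
      omega
  obtain ⟨i, hi, hi'⟩ := hr
  have hrj : ∀ j : ZMod 4, DihedralGroup.r j = (DihedralGroup.r (1 : ZMod 4)) ^ j.val := fun j => by
    rw [DihedralGroup.r_one_pow, ZMod.natCast_zmod_val]
  have hθr : ∀ j : ZMod 4, θ (DihedralGroup.r j) = DihedralGroup.r (i * j) := fun j => by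
    rw [hrj, map_pow, hi, DihedralGroup.r_pow, ZMod.natCast_zmod_val]
  have hit : ∀ (k : ℕ) (j : ZMod 4), (θ ^ k) (DihedralGroup.r j) = DihedralGroup.r (i ^ k * j) := by
    intro k
    induction k with
    | zero => intro j; simp
    | succ k ih =>
      intro j
      rw [pow_succ', MulAut.mul_apply, ih, hθr, pow_succ', mul_assoc]
  have hi1 : i = 1 := by
    have h1 := hit n 1
    rw [h, MulAut.one_apply, mul_one] at h1
    injection h1 with h1
    rcases hi' with hh | hh
    · exact hh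
    · exfalso
      obtain ⟨k, rfl⟩ := hn
      rw [hh, pow_succ, pow_mul, show (3 : ZMod 4) ^ 2 = 1 from by decide, one_pow, one_mul] at h1
      exact absurd h1 (by decide)
  have hfix : ∀ j : ZMod 4, θ (DihedralGroup.r j) = DihedralGroup.r j := fun j => by
    rw [hθr, hi1, one_mul]
  rcases es : θ (DihedralGroup.sr 0) with s | s
  · exact absurd (θ.injective (es.trans (hfix s).symm)) (by simp)
  have hsr : ∀ j : ZMod 4, θ (DihedralGroup.sr j) = DihedralGroup.sr (s + j) := fun j => by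
    conv_lhs => rw [← zero_add j, ← DihedralGroup.sr_mul_r]
    rw [map_mul, es, hfix, DihedralGroup.sr_mul_r]
  have hits : ∀ k : ℕ, (θ ^ k) (DihedralGroup.sr 0) = DihedralGroup.sr ((k : ZMod 4) * s) := by
    intro k
    induction k with
    | zero => simp
    | succ k ih =>
      rw [pow_succ', MulAut.mul_apply, ih, hsr, Nat.cast_succ, add_mul, one_mul, add_comm]
  have hs0 : s = 0 := by
    have h1 := hits n
    rw [h, MulAut.one_apply] at h1
    injection h1 with h1
    obtain ⟨k, rfl⟩ := hn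
    push_cast at h1
    exact (show ∀ c s : ZMod 4, 0 = (2 * c + 1) * s → s = 0 by decide) _ _ h1
  refine MulEquiv.ext fun g => ?_
  rcases g with j | j
  · exact hfix j
  · rw [hsr, hs0, zero_add, MulAut.one_apply]

theorem hom_of_commuting {n₁ n₂ : ℕ} [NeZero n₁] [NeZero n₂] (x y : X) (hx : x ^ n₁ = 1)
    (hy : y ^ n₂ = 1) (hxy : Commute x y) :
    ∃ φ : Multiplicative (ZMod n₁ × ZMod n₂) →* X,
      ∀ p, φ p = x ^ p.toAdd.1.val * y ^ p.toAdd.2.val := by
  refine ⟨MonoidHom.mk' (fun p => x ^ p.toAdd.1.val * y ^ p.toAdd.2.val) fun p q => ?_, fun p => rfl⟩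
  have key : ∀ {N : ℕ} [NeZero N] {z : X}, z ^ N = 1 → ∀ a b : ZMod N,
      z ^ (a + b).val = z ^ a.val * z ^ b.val := fun {N} _ {z} hz a b => by
    rw [ZMod.val_add, ← pow_add]
    conv_rhs => rw [← Nat.mod_add_div (a.val + b.val) N, pow_add, pow_mul, hz, one_pow, mul_one]
  show x ^ (p.toAdd + q.toAdd).1.val * y ^ (p.toAdd + q.toAdd).2.val = _
  rw [Prod.fst_add, Prod.snd_add, key hx, key hy]
  exact Commute.mul_mul_mul_comm (hxy.pow_pow _ _) _ _

end grp

variable {p n : ℕ} [Fact p.Prime]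

theorem out_abelian (hn : 1 ≤ n) (hF : Fintype.card F = p ^ n) (hp : p ≠ 2) (hab : Aniso a b)
    (hm : 3 ≤ m) (D : Dat (minusQ m a b)) (hν : spn D.nd (negOne (minusQ m a b)) = -1)
    (hg0 : ∃ (ν : F) (w : Fin 2 → F), binQ a b w = ν ∧
      ∀ v, D.g0.map v = eMinus m ((fun i => ν * v (.inl (.inl i)), fun i => v (.inl (.inr i))),
        mulW a b w (fun j => v (.inr j)))) :
    Nonempty (Cfsg.Out (Cfsg.POmega F (Cfsg.quadFormMinus m F a b)) ≃*
      Multiplicative (ZMod 2 × ZMod (2 * n))) := by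
  have hf := fun v => minusQ_apply (F := F) m a b v
  have hH : Hyp (minusQ m a b) := hyp_minus hab hm
  obtain ⟨ψ, psi, ho, hc, hmap, hmulp, xv, hxv, hpow⟩ :=
    exists_frobSemi_odd (m := m) hn hF hp D.h2 hab
  set y := outMk hf D.good ψ
  set x := D.xE hf
  set r := D.rE hf
  have hσy : sigOut hf hH y = ψ.σ := sigOut_mk hf hH ψ
  have hz1 : D.zE hf = 1 := (D.zE_eq_one hf).2 hν
  have hiso : ∀ g h : isoG (minusQ m a b), dick D.nd g = dick D.nd h →
      outMk hf D.good (ofIso _ g) = outMk hf D.good (ofIso _ h) := fun g h e => by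
    rw [← mul_inv_eq_one, ← map_inv, ← map_mul, ← map_inv (ofIso _), ← map_mul, D.outMk_iso_eq_one hf]
    exact ⟨by rw [map_mul, map_inv, e, mul_inv_cancel], Or.inr hν⟩
  have hyr : y ^ n = r := by
    rw [← map_pow, hpow]
    exact hiso _ _ (by rw [dick_refl _ hxv, D.dick_isoOf])
  have hyr' : Commute y r := hyr ▸ Commute.self_pow y n
  have hxr : Commute x r := by
    have := D.xr hf
    rw [hz1, one_mul] at this
    exact this
  have hxy : Commute x y := by
    have hconj : y * x * y⁻¹ = x := by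
      have hσ : (ψ * D.g0 * ψ⁻¹).σ = 1 := by
        rw [← sigmaHom_apply, map_mul, map_mul, map_inv, sigmaHom_apply, sigmaHom_apply, D.g0σ,
          mul_one, mul_inv_cancel]
      have hmc : mc _ (ψ * D.g0 * ψ⁻¹) = -1 := by
        rw [map_mul, map_mul, map_inv, D.mc_g0, mul_comm (mc _ ψ), mul_inv_cancel_right]
      have hdel : D.del (ψ * D.g0 * ψ⁻¹) = 1 := by
        obtain ⟨ν, w, hw, hmap0⟩ := hg0
        refine del_shape hab (by omega) D ⟨ν, w, hw, hmap0⟩ hσ ⟨ψ.σ ν, 1, psi w, fun v => ?_⟩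
        obtain ⟨u, rfl⟩ := ψ.map.surjective v
        rw [semi_mul_map, semi_mul_map, show (ψ⁻¹).map (ψ.map u) = u from ψ.map.symm_apply_apply u,
          hmap0, hmap, hmap]
        congr 1
        refine Prod.ext (Prod.ext (funext fun i => ?_) (funext fun i => ?_)) ?_
        · simp [eMinus_xl]
        · simp [eMinus_xr]
        · simp only [eMinus_z]
          exact hmulp w _
      have h1 : outMk hf D.good (ψ * D.g0 * ψ⁻¹ * D.g0⁻¹) = 1 := by
        have hσ' : (ψ * D.g0 * ψ⁻¹ * D.g0⁻¹).σ = 1 := by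
          rw [semi_mul_σ, hσ, one_mul, ← sigmaHom_apply, map_inv, sigmaHom_apply, D.g0σ, inv_one]
        have hg0i : (D.g0⁻¹).σ = 1 := by rw [← sigmaHom_apply, map_inv, sigmaHom_apply, D.g0σ, inv_one]
        rw [outMk_eq_one, D.act_mem_inn_iff hf hσ' hν]
        constructor
        · rw [map_mul, hmc, map_inv, D.mc_g0]; rfl
        · have := D.del_mul hσ hg0i
          have h2' := D.del_mul D.g0σ hg0i
          rw [mul_inv_cancel, ← map_one (ofIso _), D.del_iso, map_one, D.del_g0, one_mul] at h2'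
          rw [this, hdel, ← h2', one_mul]
      rw [map_mul, map_inv, mul_inv_eq_one, map_mul, map_mul, map_inv] at h1
      exact h1
    show x * y = y * x
    conv_lhs => rw [← hconj]
    rw [inv_mul_cancel_right]
  have hx2 : x ^ 2 = 1 := by
    rw [pow_two]
    rcases D.xE_xx hf with h | h
    · exact h
    · exact h.trans hz1
  have hy2 : y ^ (2 * n) = 1 := by rw [two_mul, pow_add, hyr]; exact D.rr hf
  haveI : NeZero (2 * n) := ⟨by omega⟩
  obtain ⟨φ, hφ⟩ := hom_of_commuting x y hx2 hy2 hxy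
  have hinj : Function.Injective φ := by
    rw [injective_iff_map_eq_one]
    intro q hq
    rw [hφ] at hq
    suffices H : ∀ (i : ZMod 2) (j : ZMod (2 * n)), x ^ i.val * y ^ j.val = 1 → i = 0 ∧ j = 0 by
      obtain ⟨h1, h2⟩ := H _ _ hq
      exact Multiplicative.toAdd.injective (Prod.ext h1 h2)
    intro i j hij
    have hσ : ψ.σ ^ j.val = 1 := by
      have := congrArg (sigOut hf hH) hij
      rw [map_mul, map_pow, map_pow, hσy, map_one, show sigOut hf hH x = 1 from
        (sigOut_mk hf hH D.g0).trans D.g0σ, one_pow, one_mul] at this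
      exact this
    obtain ⟨k, hk⟩ := orderOf_dvd_of_pow_eq_one hσ
    rw [ho] at hk
    have hlt := ZMod.val_lt j
    have hk2 : k < 2 := by
      by_contra h
      have : n * 2 ≤ n * k := Nat.mul_le_mul_left n (by omega)
      omega
    rw [hk, pow_mul, hyr] at hij
    have hi := ZMod.val_lt i
    have hxne : x * r ^ k ≠ 1 := fun h => by
      have : outMk hf D.good (D.g0 * ofIso _ (D.isoOf (-1) 1) ^ k) = 1 := by
        rw [map_mul, map_pow]; exact h
      obtain ⟨c, k', -, e⟩ := (act_mem_inn hf D.good).1 ((outMk_eq_one hf D.good).1 this)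
      have := congrArg (mc _) e
      simp [D.mc_g0, map_pow] at this
    have hrne : r ≠ 1 := fun h => by
      have := ((D.outMk_iso_eq_one hf).1 h).1
      rw [D.dick_isoOf] at this
      exact absurd this (by decide)
    rcases (show i.val = 0 ∨ i.val = 1 by omega) with e | e
    · refine ⟨(ZMod.val_eq_zero i).1 e, (ZMod.val_eq_zero j).1 ?_⟩
      rcases (show k = 0 ∨ k = 1 by omega) with rfl | rfl
      · simp [hk]
      · rw [e, pow_zero, one_mul, pow_one] at hij
        exact absurd hij hrne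
    · rw [e, pow_one] at hij
      exact absurd hij hxne
  have hsurj : Function.Surjective φ := by
    intro z
    obtain ⟨j, ψ', hψ', rfl⟩ := out_decomp hf hH hn (hσy ▸ ho) hc z
    have hmem : outMk hf D.good ψ' ∈ φ.range := by
      have : (sigmaHom (minusQ m a b)).ker.map (outMk hf D.good) ≤ φ.range := by
        rw [D.map_sim hf, Subgroup.closure_le]
        intro w hw
        rcases hw with h | h
        · exact ⟨.ofAdd (1, 0), by rw [hφ, h]; simp [show (1 : ZMod 2).val = 1 from rfl, x]⟩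
        · refine ⟨.ofAdd (0, (n : ZMod (2 * n))), ?_⟩
          rw [hφ, Set.mem_singleton_iff.1 h]
          simp only [toAdd_ofAdd, ZMod.val_zero, pow_zero, one_mul,
            ZMod.val_natCast_of_lt (show n < 2 * n by omega)]
          exact hyr
      exact this ⟨ψ', hψ', rfl⟩
    have hy : y ∈ φ.range := ⟨.ofAdd (0, 1), by
      rw [hφ]
      simp [ZMod.val_one_eq_one_mod, Nat.mod_eq_of_lt (show 1 < 2 * n by omega)]⟩
    exact MonoidHom.mem_range.1 (mul_mem hmem (pow_mem hy j))
  exact ⟨(MulEquiv.ofBijective φ ⟨hinj, hsurj⟩).symm⟩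

theorem out_dihedral (hn : Odd n) (hF : Fintype.card F = p ^ n) (hp : p ≠ 2) (hab : Aniso a b)
    (hm : 3 ≤ m) (D : Dat (minusQ m a b)) (hν : spn D.nd (negOne (minusQ m a b)) ≠ -1) :
    Nonempty (Cfsg.Out (Cfsg.POmega F (Cfsg.quadFormMinus m F a b)) ≃*
      DihedralGroup 4 × Multiplicative (ZMod n)) := by
  have hn1 : 1 ≤ n := hn.pos
  haveI : NeZero n := ⟨by omega⟩
  have hf := fun v => minusQ_apply (F := F) m a b v
  have hH : Hyp (minusQ m a b) := hyp_minus hab hm
  obtain ⟨ψ, -, ho, hc, -, -, -⟩ := exists_frobSemi_odd (m := m) hn1 hF hp D.h2 hab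
  set K := (sigmaHom (minusQ m a b)).ker.map (outMk hf D.good)
  obtain ⟨e⟩ := D.pgo_dihedral hf fun h => hν ((D.zE_eq_one hf).1 h)
  have hKσ : ∀ k : K, sigOut hf hH k.1 = 1 := by
    rintro ⟨_, φ, hφ, rfl⟩
    exact (sigOut_mk hf hH φ).trans hφ
  have hKmem : ∀ z, sigOut hf hH z = 1 → z ∈ K := fun z hz => by
    obtain ⟨φ, rfl⟩ := outMk_surjective hf hH z
    exact ⟨φ, (sigOut_mk hf hH φ).symm.trans hz, rfl⟩
  have h8 : ∀ z ∈ K, z ^ 8 = 1 := fun z hz => by
    obtain ⟨d, hd⟩ := e.surjective ⟨z, hz⟩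
    have hd8 : d ^ 8 = 1 := by
      have := pow_card_eq_one' (x := d)
      rwa [DihedralGroup.nat_card] at this
    have := congrArg (fun k : K => k.1) (congrArg (· ^ 8) hd)
    rw [show e d ^ 8 = 1 by rw [← map_pow, hd8, map_one]] at this
    simpa using this.symm
  set x := (outMk hf D.good ψ) ^ 8 with hx
  have hσx : sigOut hf hH x = ψ.σ ^ 8 := by rw [hx, map_pow]; exact congrArg (· ^ 8) (sigOut_mk hf hH ψ)
  have hox : orderOf (sigOut hf hH x) = n := by
    rw [hσx, Nat.Coprime.orderOf_pow, ho]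
    rw [ho]
    exact (Nat.Coprime.pow_right 3 (Nat.coprime_two_right.2 hn) : n.Coprime (2 ^ 3))
  have hxn : x ^ n = 1 := by
    rw [hx, ← pow_mul, mul_comm, pow_mul]
    refine h8 _ (hKmem _ ?_)
    rw [map_pow, show sigOut hf hH (outMk hf D.good ψ) = ψ.σ from sigOut_mk hf hH ψ, ← ho,
      pow_orderOf_eq_one]
  have hnorm : ∀ k ∈ K, x * k * x⁻¹ ∈ K := fun k hk => hKmem _ (by
    rw [map_mul, map_mul, map_inv, hKσ ⟨k, hk⟩, mul_one, mul_inv_cancel])
  have hnorm' : ∀ k ∈ K, x⁻¹ * k * x ∈ K := fun k hk => hKmem _ (by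
    rw [map_mul, map_mul, map_inv, hKσ ⟨k, hk⟩, mul_one, inv_mul_cancel])
  -- conjugation is trivial
  let c : MulAut K :=
    { toFun := fun k => ⟨x * k.1 * x⁻¹, hnorm _ k.2⟩
      invFun := fun k => ⟨x⁻¹ * k.1 * x, hnorm' _ k.2⟩
      left_inv := fun k => Subtype.ext (by simp [mul_assoc])
      right_inv := fun k => Subtype.ext (by simp [mul_assoc])
      map_mul' := fun k l => Subtype.ext (by simp [mul_assoc]) }
  have hcpow : ∀ (j : ℕ) (k : K), ((c ^ j) k).1 = x ^ j * k.1 * (x ^ j)⁻¹ := by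
    intro j
    induction j with
    | zero => intro k; simp
    | succ j ih =>
      intro k
      rw [pow_succ', MulAut.mul_apply]
      show x * ((c ^ j) k).1 * x⁻¹ = _
      rw [ih, pow_succ']
      group
  have hcn : c ^ n = 1 := MulEquiv.ext fun k => Subtype.ext (by
    rw [hcpow, hxn]; simp)
  have hθ := rigid_dihedral hn ((MulAut.congr e.symm) c) (by rw [← map_pow, hcn, map_one])
  rw [map_eq_one_iff _ (MulEquiv.injective _)] at hθ
  have hcomm : ∀ k ∈ K, Commute x k := fun k hk => by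
    have h1 := congrArg Subtype.val (DFunLike.congr_fun hθ ⟨k, hk⟩)
    exact mul_inv_eq_iff_eq_mul.1 h1
  let φ : DihedralGroup 4 × Multiplicative (ZMod n) →* Cfsg.Out (Cfsg.POmega F (Cfsg.quadFormMinus m F a b)) :=
    MonoidHom.mk' (fun q => (e q.1).1 * x ^ q.2.toAdd.val) fun q q' => by
      show (e (q.1 * q'.1)).1 * x ^ (q.2.toAdd + q'.2.toAdd).val = _
      rw [map_mul, Subgroup.coe_mul, ZMod.val_add]
      conv_lhs => rw [show x ^ ((q.2.toAdd.val + q'.2.toAdd.val) % n) = x ^ (q.2.toAdd.val + q'.2.toAdd.val) by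
        conv_rhs => rw [← Nat.mod_add_div (q.2.toAdd.val + q'.2.toAdd.val) n, pow_add, pow_mul, hxn, one_pow, mul_one]]
      rw [pow_add, mul_assoc, ← mul_assoc (e q'.1).1, ← ((hcomm _ (e q'.1).2).pow_left _).eq]
      group
  have hinj : Function.Injective φ := by
    rw [injective_iff_map_eq_one]
    rintro ⟨k, i⟩ h
    have h0 : (e k).1 * x ^ i.toAdd.val = 1 := h
    have h1 := congrArg (sigOut hf hH) h0
    rw [map_mul, hKσ, one_mul, map_pow, map_one, ← orderOf_dvd_iff_pow_eq_one, hox] at h1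
    have hi : i.toAdd.val = 0 := Nat.eq_zero_of_dvd_of_lt h1 (ZMod.val_lt _)
    rw [hi, pow_zero, mul_one] at h0
    refine Prod.ext ?_ (Multiplicative.toAdd.injective ((ZMod.val_eq_zero _).1 hi))
    exact e.injective ((Subtype.ext h0 : e k = 1).trans (map_one e).symm)
  have hsurj : Function.Surjective φ := by
    intro z
    obtain ⟨j, ψ', hψ', rfl⟩ := out_decomp hf hH hn1 hox hc z
    obtain ⟨k, hk⟩ := e.surjective ⟨_, ⟨ψ', hψ', rfl⟩⟩
    refine ⟨(k, .ofAdd (j : ZMod n)), ?_⟩
    show (e k).1 * x ^ (j : ZMod n).val = _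
    rw [hk, ZMod.val_natCast]
    congr 1
    conv_rhs => rw [← Nat.mod_add_div j n, pow_add, pow_mul, hxn, one_pow, mul_one]
  exact ⟨(MulEquiv.ofBijective φ ⟨hinj, hsurj⟩).symm⟩

end Cfsg.Agent.Lib.AutOmega
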