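import Cfsg.Agent.Lib.AutOmega.OutMinus
import Cfsg.Agent.Lib.AutOmega.FieldModels

/-!
The outer automorphism group of `PΩ⁺` in rank at least five.
-/

set_option autoImplicit false

namespace Cfsg.Agent.Lib.AutOmega

open QuadraticMap hiding proj
open Cfsg.Agent.Lib.Classical.Quad Cfsg.Agent.Lib.Classical.QuadOmega Cfsg.Agent.Lib.Classical.QuadF2
open Cfsg.Agent.Lib.AutOmegaOdd (G Semi)

universe u

section grp

variable {X : Type*} [Group X]

/-- A subgroup with a commuting complement of order `n`. -/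
theorem prod_of_section {n : ℕ} [NeZero n] (K : Subgroup X) (y : X) (hy : y ^ n = 1)
    (hcomm : ∀ k ∈ K, Commute y k) (hgen : ∀ z, ∃ k ∈ K, ∃ j : ℕ, z = k * y ^ j)
    (hint : ∀ j < n, y ^ j ∈ K → j = 0) : Nonempty (X ≃* ↥K × Multiplicative (ZMod n)) := by
  have hmod : ∀ j : ℕ, y ^ (j % n) = y ^ j := fun j => by
    conv_rhs => rw [← Nat.mod_add_div j n, pow_add, pow_mul, hy, one_pow, mul_one]
  let φ : ↥K × Multiplicative (ZMod n) →* X :=
    MonoidHom.mk' (fun q => q.1.1 * y ^ q.2.toAdd.val) fun q q' => by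
      show (q.1 * q'.1).1 * y ^ (q.2.toAdd + q'.2.toAdd).val = _
      rw [ZMod.val_add, hmod, pow_add, Subgroup.coe_mul, mul_assoc, ← mul_assoc q'.1.1,
        ← ((hcomm _ q'.1.2).pow_left _).eq]
      group
  have hinj : Function.Injective φ := by
    rw [injective_iff_map_eq_one]
    rintro ⟨k, i⟩ h
    have h0 : k.1 * y ^ i.toAdd.val = 1 := h
    have h1 : y ^ i.toAdd.val ∈ K := by
      rw [eq_inv_of_mul_eq_one_right h0]; exact inv_mem k.2
    have hi := hint _ (ZMod.val_lt _) h1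
    rw [hi, pow_zero, mul_one] at h0
    exact Prod.ext (Subtype.ext h0) (Multiplicative.toAdd.injective ((ZMod.val_eq_zero _).1 hi))
  have hsurj : Function.Surjective φ := fun z => by
    obtain ⟨k, hk, j, rfl⟩ := hgen z
    refine ⟨(⟨k, hk⟩, .ofAdd (j : ZMod n)), ?_⟩
    show k * y ^ (j : ZMod n).val = _
    rw [ZMod.val_natCast, hmod]
  exact ⟨(MulEquiv.ofBijective φ ⟨hinj, hsurj⟩).symm⟩

/-- Commuting with the generators is commuting with the subgroup. -/
theorem commute_closure {S : Set X} {y : X} (h : ∀ s ∈ S, Commute y s) :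
    ∀ k ∈ Subgroup.closure S, Commute y k := by
  intro k hk
  have hle : Subgroup.closure S ≤ Subgroup.centralizer {y} :=
    (Subgroup.closure_le _).2 fun s hs =>
      Subgroup.mem_centralizer_singleton_iff.2 (h s hs).symm.eq
  exact (Subgroup.mem_centralizer_singleton_iff.1 (hle hk)).symm

end grp

variable {F : Type u} [Field F] [Fintype F] {m : ℕ}

/-- The reference vector, of value one and fixed by the field automorphisms. -/
def unitVec (m : ℕ) (hm : 0 < m) (F : Type u) [Field F] : Fin m ⊕ Fin m → F :=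
  Pi.single (.inl ⟨0, hm⟩) 1 + Pi.single (.inr ⟨0, hm⟩) 1

omit [Fintype F] in
theorem plusQ_unitVec (hm : 0 < m) : plusQ m F (unitVec m hm F) = 1 := by
  rw [plusQ_apply, Cfsg.quadFormPlus, Finset.sum_eq_single (⟨0, hm⟩ : Fin m) _ (by simp)]
  · simp [unitVec]
  · intro i _ hi
    simp [unitVec, hi]

omit [Fintype F] in
theorem fieldPlus_unitVec (hm : 0 < m) (σ : F ≃+* F) :
    (fieldPlus m σ).map (unitVec m hm F) = unitVec m hm F := by
  rw [fieldPlus_map]
  funext i
  rcases i with i | i <;> by_cases hi : i = (⟨0, hm⟩ : Fin m) <;>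
    simp [unitVec, hi]

theorem fieldPlus_commute_refl (hm : 0 < m) (σ : F ≃+* F) :
    Commute (fieldPlus m σ) (ofIso _ (refl (plusQ m F) (unitVec m hm F))) := by
  have hu : plusQ m F (unitVec m hm F) ≠ 0 := by rw [plusQ_unitVec]; exact one_ne_zero
  show _ * _ = _ * _
  rw [mul_ofIso, (conjI_refl (fieldPlus m σ) hu).1, fieldPlus_unitVec]

theorem fieldPlus_pow (σ : F ≃+* F) {n : ℕ} (hn : σ ^ n = 1) : fieldPlus m σ ^ n = 1 := by
  refine semi_ext (by rw [semi_pow_σ]; exact hn) (semi_pow_H _ rfl n) fun v => ?_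
  have key : ∀ (k : ℕ) (v : Fin m ⊕ Fin m → F) (i : Fin m ⊕ Fin m),
      ((fieldPlus m σ) ^ k).map v i = (σ ^ k) (v i) := by
    intro k
    induction k with
    | zero => intro v i; simp
    | succ k ih =>
      intro v i
      rw [pow_succ', semi_mul_map, fieldPlus_map]
      show σ _ = _
      rw [ih, pow_succ', RingAut.mul_apply]
  funext i
  rw [key, hn, RingAut.one_apply, semi_one_map]

/-! ### Characteristic two -/

theorem out_plus_two {n : ℕ} (hn : 1 ≤ n) (hF : Fintype.card F = 2 ^ n) (hm : 5 ≤ m) :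
    Nonempty (Cfsg.Out (Cfsg.POmega F (Cfsg.quadFormPlus m F)) ≃*
      Multiplicative (ZMod 2 × ZMod n)) := by
  haveI : CharP F 2 := charP_of_card_eq_prime_pow (R := F) (f := n) hF
  haveI : Fact (Nat.Prime 2) := ⟨Nat.prime_two⟩
  haveI : NeZero n := ⟨by omega⟩
  have h2 : (2 : F) = 0 := by exact_mod_cast CharP.cast_eq_zero F 2
  have hf := fun v => plusQ_apply (F := F) m v
  have hH : Hyp (plusQ m F) := hyp_plus hm
  obtain ⟨σ, -, -, ho, hc⟩ := exists_frob (p := 2) hn hF
  have hm0 : 0 < m := by omega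
  have hQ : Nd (plusQ m F) := hH.good.nd
  have hreg : Reg F (Fin m ⊕ Fin m → F) := reg_plusQ (by omega)
  have hsieg : ∀ h : isoG (plusQ m F), h ∈ siegelGroup (plusQ m F) ↔ dick hQ h = 1 :=
    fun h => by rw [← commutator_eq hH.good, mem_commutator_iff_two hQ hreg h2]
  have hu : plusQ m F (unitVec m hm0 F) ≠ 0 := by rw [plusQ_unitVec]; exact one_ne_zero
  set ψ := fieldPlus m σ with hψ
  set y := outMk hf hH.good ψ with hy
  set r := outMk hf hH.good (ofIso _ (refl (plusQ m F) (unitVec m hm0 F))) with hr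
  have hsq : ∀ c : F, c * c = 1 → c = 1 := fun c h => by
    have : (c - 1) * (c - 1) = 0 := by linear_combination h + (1 - c) * h2
    exact sub_eq_zero.1 (mul_self_eq_zero.1 this)
  have hr1 : r ≠ 1 := fun h => by
    obtain ⟨c, k, hk, e⟩ := (act_mem_inn hf hH.good).1 ((outMk_eq_one hf hH.good).1 h)
    have hH' := congrArg Semi.H e
    simp only [semi_mul_H, ofScalar_H, ofScalar_σ, ofIso_H, map_one, mul_one] at hH'
    obtain rfl : c = 1 := Units.ext (hsq _ hH'.symm)
    rw [map_one, one_mul] at e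
    rw [← ofIso_injective e, hsieg, dick_refl hQ hu] at hk
    exact absurd hk (by decide)
  have hrr : r ^ 2 = 1 := by
    rw [pow_two, hr, ← map_mul, ← map_mul, refl_mul_self hu, map_one, map_one]
  have hker : ∀ φ : Semi (plusQ m F), φ.σ = 1 →
      outMk hf hH.good φ = 1 ∨ outMk hf hH.good φ = r := by
    intro φ hφ
    obtain ⟨c, hc⟩ := FiniteField.isSquare_of_char_two
      (CharP.ringChar_of_prime_eq_zero Nat.prime_two (by exact_mod_cast h2)) φ.H
    have hc0 : c ≠ 0 := fun h => φ.H0 (by rw [hc, h, mul_zero])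
    obtain ⟨h, rfl⟩ := eq_scalar_iso hφ (c := Units.mk0 c hc0) hc
    rw [map_mul, outMk_scalar, one_mul]
    rcases Int.units_eq_one_or (dick hQ h) with d | d
    · exact Or.inl ((outMk_eq_one hf hH.good).2 ((act_mem_inn hf hH.good).2
        ⟨1, h, (hsieg h).2 d, by rw [map_one, one_mul]⟩))
    · refine Or.inr ?_
      rw [hr, ← mul_inv_eq_one, ← map_inv, ← map_mul, ← map_inv (ofIso _), ← map_mul, outMk_eq_one,
        act_mem_inn]
      exact ⟨1, h * (refl _ _)⁻¹, (hsieg _).2 (by rw [map_mul, map_inv, d, dick_refl hQ hu]; decide),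
        by rw [map_one, one_mul]⟩
  have hyn : y ^ n = 1 := by
    rw [hy, ← map_pow, hψ, fieldPlus_pow σ (by rw [← ho, pow_orderOf_eq_one]), map_one]
  have hσy : sigOut hf hH y = σ := sigOut_mk hf hH ψ
  have hσr : sigOut hf hH r = 1 := sigOut_mk hf hH _
  have hK : ∀ k ∈ Subgroup.zpowers r, sigOut hf hH k = 1 := fun k hk => by
    obtain ⟨i, rfl⟩ := Subgroup.mem_zpowers_iff.1 hk
    rw [map_zpow, hσr, one_zpow]
  obtain ⟨e⟩ := prod_of_section (Subgroup.zpowers r) y hyn
    (by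
      rw [Subgroup.zpowers_eq_closure]
      refine commute_closure ?_
      rintro _ rfl
      exact (fieldPlus_commute_refl hm0 σ).map (outMk hf hH.good))
    (fun z => by
      obtain ⟨j, φ, hφ, rfl⟩ := out_decomp hf hH hn (hσy.symm ▸ ho) hc z
      refine ⟨_, ?_, j, rfl⟩
      rcases hker φ hφ with e | e <;> rw [e]
      exacts [one_mem _, Subgroup.mem_zpowers r])
    (fun j hj hjm => by
      have h1 := hK _ hjm
      rw [map_pow, hσy, ← orderOf_dvd_iff_pow_eq_one, ho] at h1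
      exact Nat.eq_zero_of_dvd_of_lt h1 hj)
  have ho2 : Nat.card (Subgroup.zpowers r) = 2 := by
    rw [Nat.card_zpowers]; exact orderOf_eq_prime hrr hr1
  exact ⟨e.trans ((MulEquiv.prodCongr (mulEquivOfPrimeCardEq (p := 2) ho2 (by simp))
    (MulEquiv.refl _)).trans (MulEquiv.prodMultiplicative (ZMod 2) (ZMod n)).symm)⟩

/-! ### Odd characteristic -/

/-- The Frobenius class can be chosen to centralise the similitudes. -/
theorem exists_frob_central {p n : ℕ} [Fact p.Prime] (hn : 1 ≤ n) (hF : Fintype.card F = p ^ n)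
    (hp : p ≠ 2) (hm : 5 ≤ m) (D : Dat (plusQ m F))
    (hν : spn D.nd (negOne (plusQ m F)) = sqSign ((-1 : F) ^ m))
    (hg0 : ∃ ν : F, ∀ v, D.g0.map v = Sum.elim (fun i => ν * v (.inl i)) (fun i => v (.inr i))) :
    ∃ y : Cfsg.Out (Cfsg.POmega F (Cfsg.quadFormPlus m F)),
      y ^ n = 1 ∧ Commute y (D.xE fun v => plusQ_apply (F := F) m v) ∧
      Commute y (D.rE fun v => plusQ_apply (F := F) m v) ∧
      orderOf (sigOut (fun v => plusQ_apply (F := F) m v) (hyp_plus hm) y) = n := by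
  have hodd : Odd (Fintype.card F) := by
    rw [hF]; exact ((Fact.out : p.Prime).odd_of_ne_two hp).pow
  have hf := fun v => plusQ_apply (F := F) m v
  have hH : Hyp (plusQ m F) := hyp_plus hm
  have hm0 : 0 < m := by omega
  have hu : plusQ m F (unitVec m hm0 F) ≠ 0 := by rw [plusQ_unitVec]; exact one_ne_zero
  obtain ⟨σ, hσ, -, ho, -⟩ := exists_frob (p := p) hn hF
  obtain ⟨ν, hmap0⟩ := hg0
  have hH0 : D.g0.H = ν := by
    have h1 := D.g0.map_Q (unitVec m hm0 F)
    rw [plusQ_unitVec, map_one, mul_one] at h1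
    have hg : D.g0.map (unitVec m hm0 F) =
        Pi.single (.inl ⟨0, hm0⟩) ν + Pi.single (.inr ⟨0, hm0⟩) 1 := by
      rw [hmap0]
      funext i
      rcases i with i | i <;> by_cases hi : i = (⟨0, hm0⟩ : Fin m) <;> simp [unitVec, hi]
    rw [← h1, hg, plusQ_apply, Cfsg.quadFormPlus,
      Finset.sum_eq_single (⟨0, hm0⟩ : Fin m) _ (by simp)]
    · simp
    · intro i _ hi; simp [hi]
  have hν0 : ν ≠ 0 := hH0 ▸ D.g0.H0
  have hns : sqSign ν = -1 := by rw [sqSign, if_neg (hH0 ▸ D.g0ns)]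
  set ψ := fieldPlus m σ with hψ
  set y := outMk hf D.good ψ with hy
  set x := D.xE hf with hx
  set r := D.rE hf with hr
  set z := D.zE hf with hz
  have hσy : sigOut hf hH y = σ := sigOut_mk hf hH ψ
  have hσr : sigOut hf hH r = 1 := sigOut_mk hf hH _
  have hyn : y ^ n = 1 := by
    rw [hy, ← map_pow, hψ, fieldPlus_pow σ (by rw [← ho, pow_orderOf_eq_one]), map_one]
  have hyr : Commute y r := by
    have e : r = outMk hf D.good (ofIso _ (refl (plusQ m F) (unitVec m hm0 F))) :=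
      D.outMk_iso_congr hf (by rw [D.dick_isoOf, dick_refl _ hu])
        (by rw [D.spn_isoOf, spn_refl _ D.h2 hu, plusQ_unitVec, sqSign_one])
    rw [e]
    exact (fieldPlus_commute_refl hm0 σ).map (outMk hf D.good)
  have hyz : Commute y z := by
    show y * z = z * y
    rw [hy, hz, Dat.zE, ← map_mul, mul_ofIso, map_mul]
    congr 1
    refine D.outMk_iso_congr hf ?_ ?_
    · rw [dick_conjI _ (reg_of_two_ne_zero D.h2)]
    · rw [spn_conjI _ D.h2, D.dick_isoOf, if_pos rfl, mul_one]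
  set k := (p - 1) / 2 * m with hk
  set d : Fˣ := Units.mk0 ν hν0 ^ ((p - 1) / 2) with hd
  have hpν : σ ν = (d : F) * d * ν := by
    rw [hσ, hd, Units.val_pow_eq_pow_val, Units.val_mk0, ← pow_add, ← pow_succ]
    congr 1
    obtain ⟨j, hj⟩ := (Fact.out : p.Prime).odd_of_ne_two hp
    omega
  set h := mapIso (ePlus m) (plus_ePlus m) (scaleHom m (zeroQ F) fun _ => d) with hh
  have hyx : y * x = outMk hf D.good (ofIso _ h) * x * y := by
    have e : ψ * D.g0 = ofScalar _ d * ofIso _ h * D.g0 * ψ := by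
      refine semi_ext (by simp [D.g0σ, hψ]) ?_ fun v => ?_
      · simp only [semi_mul_H, semi_mul_σ, ofScalar_H, ofScalar_σ, ofIso_H, ofIso_σ, hH0, D.g0σ,
          map_one, mul_one, one_mul, RingAut.one_apply, hψ]
        show 1 * σ ν = (d : F) * d * ν * 1
        rw [one_mul, mul_one, hpν]
      · funext i
        simp only [semi_mul_map, ofScalar_map, ofIso_map, hψ, fieldPlus_map, hmap0, Pi.smul_apply,
          smul_eq_mul]
        rcases i with i | i
        · rw [hh, (scale_map _ _ i).1]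
          simp only [Sum.elim_inl, map_mul, hpν]
          ring
        · rw [hh, (scale_map _ _ i).2]
          simp only [Sum.elim_inr]
          rw [← mul_assoc, ← Units.val_mul, mul_inv_cancel, Units.val_one, one_mul]
    rw [hy, hx, Dat.xE, ← map_mul, e, map_mul, map_mul, map_mul, outMk_scalar, one_mul]
  obtain ⟨hd1, hd2⟩ := invs_scale (F := F) (m := m) D.h2 (fun _ => d)
  rw [← hh] at hd1 hd2
  have hspn : spn D.nd h = (-1) ^ k := by
    rw [hd2, Finset.prod_const, Finset.card_univ, Fintype.card_fin, hd, Units.val_pow_eq_pow_val,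
      Units.val_mk0, ← pow_mul, sqSign_pow hν0, hns]
  rcases Nat.even_or_odd k with hev | hod
  · have h1 : outMk hf D.good (ofIso _ h) = 1 :=
      (D.outMk_iso_eq_one hf).2 ⟨hd1, Or.inl (by rw [hspn, hev.neg_one_pow])⟩
    rw [h1, one_mul] at hyx
    exact ⟨y, hyn, hyx, hyr, hσy.symm ▸ ho⟩
  have h1 : outMk hf D.good (ofIso _ h) = z :=
    D.outMk_iso_congr hf (by rw [hd1, D.dick_isoOf]) (by rw [hspn, hod.neg_one_pow, D.spn_isoOf])
  rw [h1] at hyx
  by_cases hz1 : z = 1
  · rw [hz1, one_mul] at hyx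
    exact ⟨y, hyn, hyx, hyr, hσy.symm ▸ ho⟩
  have hne : spn D.nd (negOne (plusQ m F)) ≠ -1 := fun h => hz1 ((D.zE_eq_one hf).2 h)
  have hmo : Odd m := (Nat.odd_mul.1 hod).2
  have hpo : Odd ((p - 1) / 2) := (Nat.odd_mul.1 hod).1
  have hne' : Fintype.card F % 4 ≠ 3 := fun h =>
    hne (by rw [hν, sqSign_negOne_pow hodd]; exact ⟨hmo, h⟩)
  have hne2 : Even n := by
    by_contra hodn
    obtain ⟨j, rfl⟩ := Nat.not_even_iff_odd.1 hodn
    obtain ⟨i, hi⟩ := hpo
    obtain ⟨i', hi'⟩ := (Fact.out : p.Prime).odd_of_ne_two hp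
    refine hne' ?_
    have hp4 : p % 4 = 3 := by omega
    rw [hF, pow_succ, pow_mul, Nat.mul_mod, Nat.pow_mod, Nat.pow_mod p 2, hp4]
    norm_num
  have hr2 : r ^ n = 1 := by
    obtain ⟨j, rfl⟩ := hne2
    rw [← two_mul, pow_mul, pow_two, hr, D.rr hf, one_pow]
  refine ⟨y * r, by rw [hyr.mul_pow, hyn, hr2, one_mul], ?_, hyr.mul_left (Commute.refl r), ?_⟩
  · have hrx : r * x = z * (x * r) := by
      rw [hx, hr, D.xr hf, ← mul_assoc, ← mul_assoc, hz, D.zz hf, one_mul]
    show y * r * x = x * (y * r)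
    calc y * r * x = y * (z * (x * r)) := by rw [mul_assoc, hrx]
      _ = z * (y * x) * r := by rw [← mul_assoc, hyz.eq]; group
      _ = z * z * x * y * r := by rw [hyx]; group
      _ = x * (y * r) := by rw [hz, D.zz hf, one_mul, mul_assoc]
  · rw [map_mul, hσy, hσr, mul_one, ho]

theorem out_plus_odd {p n : ℕ} [Fact p.Prime] (hn : 1 ≤ n) (hF : Fintype.card F = p ^ n)
    (hp : p ≠ 2) (hm : 5 ≤ m) :
    if p ^ n % 4 = 3 ∧ Odd m then
      Nonempty (Cfsg.Out (Cfsg.POmega F (Cfsg.quadFormPlus m F)) ≃*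
        Multiplicative (ZMod 2 × ZMod 2 × ZMod n))
    else Nonempty (Cfsg.Out (Cfsg.POmega F (Cfsg.quadFormPlus m F)) ≃*
      DihedralGroup 4 × Multiplicative (ZMod n)) := by
  haveI : NeZero n := ⟨by omega⟩
  have hodd : Odd (Fintype.card F) := by
    rw [hF]; exact ((Fact.out : p.Prime).odd_of_ne_two hp).pow
  have h2 : (2 : F) ≠ 0 := two_ne_zero_of_odd hodd
  have hf := fun v => plusQ_apply (F := F) m v
  have hH : Hyp (plusQ m F) := hyp_plus hm
  obtain ⟨D, hν, -, hg0⟩ := exists_dat_plus (F := F) (m := m) (by omega) h2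
  obtain ⟨y, hyn, hyx, hyr, ho⟩ := exists_frob_central hn hF hp hm D hν hg0
  obtain ⟨σ, -, -, -, hc⟩ := exists_frob (p := p) hn hF
  set K := (sigmaHom (plusQ m F)).ker.map (outMk hf D.good) with hK
  have hKc : K = Subgroup.closure {D.xE hf, D.rE hf} := D.map_sim hf
  obtain ⟨e⟩ := prod_of_section K y hyn
    (by
      rw [hKc]
      refine commute_closure ?_
      rintro _ (rfl | rfl)
      exacts [hyx, hyr])
    (fun z => by
      obtain ⟨j, φ, hφ, rfl⟩ := out_decomp hf hH hn ho hc z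
      exact ⟨_, ⟨φ, hφ, rfl⟩, j, rfl⟩)
    (fun j hj hjm => by
      obtain ⟨φ, hφ, hφe⟩ := hjm
      have h1 := congrArg (sigOut hf hH) hφe.symm
      rw [map_pow, show sigOut hf hH (outMk hf D.good φ) = 1 from (sigOut_mk hf hH φ).trans hφ,
        ← orderOf_dvd_iff_pow_eq_one, ho] at h1
      exact Nat.eq_zero_of_dvd_of_lt h1 hj)
  have hcase : D.zE hf = 1 ↔ p ^ n % 4 = 3 ∧ Odd m := by
    rw [D.zE_eq_one hf, hν, sqSign_negOne_pow hodd, hF, and_comm]
  split_ifs with hc4
  · have hz1 := hcase.2 hc4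
    have hxr : D.xE hf * D.rE hf = D.rE hf * D.xE hf := by
      rw [D.xr hf, hz1, one_mul]
    have hxx : D.xE hf * D.xE hf = 1 := by
      rcases D.xE_xx hf with h | h
      · exact h
      · exact h.trans hz1
    have hmc : ∀ φ : Semi (plusQ m F), mc _ φ = -1 → outMk hf D.good φ ≠ 1 := fun φ hφ h => by
      obtain ⟨c, k, -, e⟩ := (act_mem_inn hf D.good).1 ((outMk_eq_one hf D.good).1 h)
      have := congrArg (mc (plusQ m F)) e
      simp [hφ] at this
    have hx1 : D.xE hf ≠ 1 := hmc _ D.mc_g0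
    have hxne : D.xE hf ≠ D.rE hf := fun h => by
      refine hmc (D.g0 * ofIso _ (D.isoOf (-1) 1)) (by simp [D.mc_g0]) ?_
      show outMk hf D.good (_ * _) = 1
      rw [map_mul]
      show D.xE hf * D.rE hf = 1
      rw [h, D.rr hf]
    have hr1 : D.rE hf ≠ 1 := fun h => by
      have := ((D.outMk_iso_eq_one hf).1 h).1
      rw [D.dick_isoOf] at this
      exact absurd this (by decide)
    obtain ⟨eK⟩ := klein_four hr1 (D.rr hf) hx1 hxne hxr hxx
    exact ⟨e.trans ((MulEquiv.prodCongr ((MulEquiv.subgroupCongr hKc).trans eK.symm)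
      (MulEquiv.refl _)).trans ((MulEquiv.prodMultiplicative (ZMod 2 × ZMod 2) (ZMod n)).symm.trans
        (AddEquiv.prodAssoc (M := ZMod 2) (N := ZMod 2) (P := ZMod n)).toMultiplicative))⟩
  · obtain ⟨eK⟩ := D.pgo_dihedral hf fun h => hc4 (hcase.1 h)
    exact ⟨e.trans (MulEquiv.prodCongr eK.symm (MulEquiv.refl _))⟩

end Cfsg.Agent.Lib.AutOmega
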