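import Cfsg.Agent.Lib.AutOmega.FieldModels

/-!
The inner-diagonal group of `PΩ⁺` is normal in the automorphism group, triality included.
-/

set_option autoImplicit false

namespace Cfsg.Agent.Lib.AutOmega

open QuadraticMap hiding proj
open Cfsg.Agent.Lib.Classical.Quad Cfsg.Agent.Lib.Classical.QuadOmega Cfsg.Agent.Lib.Classical.QuadF2
open Cfsg.Agent.Lib.AutOmegaOdd (G G_ext G_mul G_one G_inv G_inv' G_Q sg sg_apply sg_mem_U U mem_U Fr
  sg_zero sg_fix map_map_mul map_one_aut inv_fix map_conj_U Semi sg_conj finite_G)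

universe u v

section gen

variable {F : Type u} [Field F] {V : Type v} [AddCommGroup V] [Module F V] {Q : QuadraticForm F V}

theorem conjP_ofIso (g : G Q) : conjP (ofIso Q g.1) = MulAut.conj (pr Q g) := MulEquiv.ext fun z => by
  obtain ⟨h, rfl⟩ := pr_surjective z
  rw [conjP_pr, conj_pr_eq]
  congr 1

theorem conjP_UP (ψ : Semi Q) {x : V} (hx : Q x = 0) :
    (UP Q x).map (conjP ψ).toMonoidHom = UP Q (ψ.map x) := by
  have hψx : Q (ψ.map x) = 0 := by rw [ψ.map_Q, hx, map_zero, mul_zero]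
  rw [← UP_smul hψx (inv_ne_zero ψ.H0), UP, UP, Subgroup.map_map]
  refine le_antisymm ?_ ?_
  · rintro _ ⟨g, hg, rfl⟩
    obtain ⟨w, hw, rfl⟩ := (mem_U hx).1 hg
    refine ⟨sg Q (ψ.H⁻¹ • ψ.map x) (ψ.map w), sg_mem_U _ ?_, ?_⟩
    · rw [polar_smul_left, ψ.map_B, hw, map_zero, mul_zero, smul_zero]
    · rw [← ψ.conjG_sg hx hw]; exact (conjP_pr ψ _).symm
  · rintro _ ⟨g, hg, rfl⟩
    obtain ⟨w', hw', rfl⟩ :=
      (mem_U (by rw [QuadraticMap.map_smul, hψx, smul_zero])).1 hg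
    obtain ⟨w, rfl⟩ := ψ.map.surjective w'
    have hw : polar Q x w = 0 := by
      rw [polar_smul_left, ψ.map_B, smul_eq_mul, ← mul_assoc, inv_mul_cancel₀ ψ.H0, one_mul,
        map_eq_zero] at hw'
      exact hw'
    refine ⟨sg Q x w, sg_mem_U _ hw, ?_⟩
    rw [← ψ.conjG_sg hx hw]
    exact conjP_pr ψ _

theorem conjP_sg (ψ : Semi Q) {x w : V} (hx : Q x = 0) (hw : polar Q x w = 0) :
    conjP ψ (pr Q (sg Q x w)) = pr Q (sg Q (ψ.H⁻¹ • ψ.map x) (ψ.map w)) := by
  rw [conjP_pr, ψ.conjG_sg hx hw]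

variable [Fintype F] [Finite V] {p : ℕ} [Fact p.Prime] [CharP F p]

omit [Fintype F] [Finite V] in
theorem pow_p_of_mem_ZT {T : Submodule F V} (hT : ∀ a ∈ T, Q a = 0) {g : G Q} (hg : g ∈ ZT Q T) :
    g ^ p = 1 := by
  induction hg using Subgroup.closure_induction with
  | mem z hz =>
    obtain ⟨a, ha, b, hb, rfl⟩ := hz
    exact sg_pow_p (hT a ha) (perp_of_TS hT ha hb)
  | one => exact one_pow p
  | mul a b ha hb iha ihb => rw [(ZT_comm hT ha hb).mul_pow, iha, ihb, one_mul]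
  | inv a _ iha => rw [inv_pow, iha, inv_one]

omit [Fintype F] [Finite V] in
theorem sg_ne_one {x w : V} (hx : Q x = 0) (hw : polar Q x w = 0) (hG : Good Q)
    (hind : ∀ c : F, w ≠ c • x) (hx0 : x ≠ 0) : sg Q x w ≠ 1 := fun h => by
  obtain ⟨y, hy, hxy⟩ := hG.exists_partner hx0 hx
  have h1 := congrArg (fun g : G Q => g.1.1 y) h
  simp only [sg_apply hx hw, polar_comm Q y x, hxy, one_smul, G_one] at h1
  exact hind (polar Q y w + Q w * 1) (by linear_combination (norm := module) h1)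

omit [Fintype F] [Finite V] in
/-- The vectors fixed by the root group of a maximal singular subspace lie in it. -/
theorem mem_of_ZT_fix (hQ : Nd Q) {T : Submodule F V} (hT : MaxTS Q T)
    [FiniteDimensional F V] (h2 : 2 ≤ Module.finrank F T) {v : V}
    (hv : ∀ g ∈ ZT Q T, g.1.1 v = v) : v ∈ T := by
  by_contra hvT
  obtain ⟨a, ha, hav⟩ : ∃ a ∈ T, polar Q v a ≠ 0 := by
    by_contra! h
    exact hvT (hT.perp_eq hQ ▸ mem_perpS.2 h)
  obtain ⟨b, hb, hba⟩ : ∃ b ∈ T, ∀ c : F, b ≠ c • a := by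
    by_contra! h
    have hle : T ≤ Submodule.span F {a} := fun b hb => by
      obtain ⟨c, rfl⟩ := h b hb
      exact Submodule.smul_mem _ _ (Submodule.mem_span_singleton_self a)
    have h1 := Submodule.finrank_mono hle
    have h3 : Module.finrank F (Submodule.span F ({a} : Set V)) = 1 :=
      finrank_span_singleton fun h0 => hav (by rw [h0, polar_zero_right])
    omega
  have h := hv _ (sg_mem_ZT ha hb)
  rw [apply_of_TS hT.sing ha hb, add_eq_left, sub_eq_zero] at h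
  exact hba ((polar Q v a)⁻¹ * polar Q v b) (by rw [mul_smul, ← h, inv_smul_smul₀ hav])

/-- The image of the root group of a maximal singular subspace. -/
noncomputable def ZP (Q : QuadraticForm F V) (T : Submodule F V) : Subgroup (PG Q) :=
  (ZT Q T).map (pr Q)

theorem ZP_inj (hG : Good Q) {T T' : Submodule F V} (hT : MaxTS Q T) (hT' : MaxTS Q T')
    (h2 : 2 ≤ Module.finrank F T) (h : ZP Q T = ZP Q T') : T = T' := by
  obtain ⟨p, hp⟩ := CharP.exists F
  obtain ⟨d, hp', -⟩ := FiniteField.card F p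
  haveI : Fact p.Prime := ⟨hp'⟩
  have : FiniteDimensional F V := Module.Finite.of_finite
  have hle : T' ≤ T := fun v hv => mem_of_ZT_fix hG.nd hT h2 fun g hg => by
    obtain ⟨g', hg', e⟩ := (h ▸ (⟨g, hg, rfl⟩ : pr Q g ∈ ZP Q T) : pr Q g ∈ ZP Q T')
    rw [← eq_of_pr (p := p) hG (i := 1) (j := 1) (by rw [pow_one]; exact pow_p_of_mem_ZT hT'.sing hg')
      (by rw [pow_one]; exact pow_p_of_mem_ZT hT.sing hg) e]
    exact ZT_fix_T hT'.sing hg' hv
  have h1 := hT.dim
  have h1' := hT'.dim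
  exact (Submodule.eq_of_le_of_finrank_le hle (by omega)).symm

theorem UP_ne_ZP (hG : Good Q) {T : Submodule F V} (hT : MaxTS Q T) (h2 : 2 ≤ Module.finrank F T)
    {x : V} (hx0 : x ≠ 0) (hx : Q x = 0) : UP Q x ≠ ZP Q T := fun h => by
  obtain ⟨p, hp⟩ := CharP.exists F
  obtain ⟨d, hp', -⟩ := FiniteField.card F p
  haveI : Fact p.Prime := ⟨hp'⟩
  have : FiniteDimensional F V := Module.Finite.of_finite
  obtain ⟨y, hy, hxy⟩ := hG.exists_partner hx0 hx
  have hle : T ≤ Submodule.span F {x} := fun v hv => by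
    obtain ⟨c, rfl⟩ := U_fix hG ⟨hx, hy, hxy⟩ (v := v) fun r hr => by
      obtain ⟨r', hr', e⟩ := (h ▸ (⟨r, hr, rfl⟩ : pr Q r ∈ UP Q x) : pr Q r ∈ ZP Q T)
      rw [← eq_of_pr (p := p) hG (i := 1) (j := 1)
        (by rw [pow_one]; exact pow_p_of_mem_ZT hT.sing hr')
        (by rw [pow_one]; exact pow_p_of_mem_U hx hr) e]
      exact ZT_fix_T hT.sing hr' hv
    exact Submodule.smul_mem _ _ (Submodule.mem_span_singleton_self x)
  have h1 := Submodule.finrank_mono hle
  rw [finrank_span_singleton hx0] at h1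
  omega

omit [Fintype F] in
/-- An element of two such root groups. -/
theorem exists_sg_of_two (hG : Good Q) {T T' : Submodule F V} (hT : MaxTS Q T) (hT' : MaxTS Q T')
    (hd : Module.finrank F (T ⊓ T' : Submodule F V) = 0 ∨
      Module.finrank F (T ⊓ T' : Submodule F V) = 2) :
    (∀ g, g ∈ ZT Q T → g ∈ ZT Q T' → g = 1) ∨ ∃ a b : V, Q a = 0 ∧ Q b = 0 ∧ polar Q a b = 0 ∧
      (∀ c : F, b ≠ c • a) ∧ a ≠ 0 ∧
      ∀ g, g ∈ ZT Q T → g ∈ ZT Q T' → ∃ r : F, g = sg Q a (r • b) := by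
  have : FiniteDimensional F V := Module.Finite.of_finite
  have hT2 := hT.dim
  have hT2' := hT'.dim
  have hsum := Submodule.finrank_sup_add_finrank_inf_eq T T'
  have hfix : ∀ g, g ∈ ZT Q T → g ∈ ZT Q T' → ∀ v ∈ T ⊔ T', g.1.1 v = v := fun g hg hg' v hv => by
    obtain ⟨x, hx, y, hy, rfl⟩ := Submodule.mem_sup.1 hv
    rw [map_add, ZT_fix_T hT.sing hg hx, ZT_fix_T hT'.sing hg' hy]
  rcases hd with hd | hd
  · refine Or.inl fun g hg hg' => G_ext fun v => ?_
    rw [G_one]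
    refine hfix g hg hg' v ?_
    rw [Submodule.eq_top_of_finrank_eq (S := T ⊔ T') (by omega)]
    exact Submodule.mem_top
  obtain ⟨B⟩ : Nonempty (Module.Basis (Fin 2) F (T ⊓ T' : Submodule F V)) :=
    ⟨(Module.finBasis F _).reindex (finCongr hd)⟩
  set a : V := (B 0 : V)
  set b : V := (B 1 : V)
  have ha := (B 0).2
  have hb := (B 1).2
  have hab : polar Q a b = 0 := perp_of_TS hT.sing ha.1 hb.1
  have hind : ∀ c : F, b ≠ c • a := fun c hc => by
    have h1 : B 1 = c • B 0 := Subtype.ext hc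
    have h2 := congrArg (fun z => B.repr z 1) h1
    simp at h2
  have ha0 : a ≠ 0 := fun h => B.ne_zero 0 (Subtype.ext h)
  refine Or.inr ⟨a, b, hT.sing a ha.1, hT.sing b hb.1, hab, hind, ha0, fun g hg hg' => ?_⟩
  obtain ⟨v₁, hv₁⟩ := exists_dual hG (T ⊓ T') (B.coord 0)
  obtain ⟨v₂, hv₂⟩ := exists_dual hG (T ⊓ T') (B.coord 1)
  have e1a : polar Q v₁ a = 1 := by rw [show polar Q v₁ a = _ from hv₁ (B 0)]; simp
  have e1b : polar Q v₁ b = 0 := by rw [show polar Q v₁ b = _ from hv₁ (B 1)]; simp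
  have e2a : polar Q v₂ a = 0 := by rw [show polar Q v₂ a = _ from hv₂ (B 0)]; simp
  have e2b : polar Q v₂ b = 1 := by rw [show polar Q v₂ b = _ from hv₂ (B 1)]; simp
  -- the displacement lies in the intersection
  have hdisp : ∀ v, g.1.1 v - v ∈ (T ⊓ T' : Submodule F V) := fun v => by
    have hp : ∀ U : Submodule F V, MaxTS Q U → U ≤ T ⊔ T' → g.1.1 v - v ∈ U := fun U hU hle => by
      rw [← hU.perp_eq hG.nd, mem_perpS]
      intro s hs
      rw [polar_sub_left]
      nth_rewrite 1 [← hfix g hg hg' s (hle hs)]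
      rw [AutOmegaOdd.G_B, sub_self]
    exact ⟨hp T hT le_sup_left, hp T' hT' le_sup_right⟩
  have hcoord : ∀ v ∈ (T ⊓ T' : Submodule F V), v = polar Q v₁ v • a + polar Q v₂ v • b := by
    intro v hv
    have h := congrArg Subtype.val (B.sum_repr ⟨v, hv⟩)
    rw [show polar Q v₁ v = _ from hv₁ ⟨v, hv⟩, show polar Q v₂ v = _ from hv₂ ⟨v, hv⟩]
    rw [Fin.sum_univ_two] at h
    exact h.symm.trans (by rfl)
  set r := polar Q v₂ (g.1.1 v₁ - v₁)
  have h11 : g.1.1 v₁ = v₁ + r • b := by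
    have h := hcoord _ (hdisp v₁)
    have hq : polar Q v₁ (g.1.1 v₁ - v₁) = 0 := by
      have hQ := G_Q g v₁
      conv_lhs at hQ => rw [show g.1.1 v₁ = v₁ + (g.1.1 v₁ - v₁) by abel]
      rw [QuadraticMap.map_add ⇑Q, hT.sing _ (hdisp v₁).1, add_zero, add_eq_left] at hQ
      exact hQ
    rw [hq, zero_smul, zero_add] at h
    rw [← h]; abel
  have hkill : ∀ v, polar Q v a = 0 → polar Q v b = 0 → g.1.1 v = v := by
    intro v hva hvb
    refine hfix g hg hg' v ?_
    have hle : T ⊔ T' ≤ perpS Q (T ⊓ T') := sup_le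
      (fun x hx => mem_perpS.2 fun s hs => perp_of_TS hT.sing hx hs.1)
      (fun x hx => mem_perpS.2 fun s hs => perp_of_TS hT'.sing hx hs.2)
    have heq : T ⊔ T' = perpS Q (T ⊓ T') :=
      Submodule.eq_of_le_of_finrank_le hle (by
        have := finrank_perpS hG.nd (T ⊓ T')
        omega)
    rw [heq, mem_perpS]
    intro s hs
    rw [hcoord s hs, polar_add_right, polar_smul_right, polar_smul_right, hva, hvb, smul_zero,
      smul_zero, add_zero]
  have h22 : g.1.1 v₂ = v₂ + (-r) • a := by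
    have h := hcoord _ (hdisp v₂)
    have hq : polar Q v₂ (g.1.1 v₂ - v₂) = 0 := by
      have hQ := G_Q g v₂
      conv_lhs at hQ => rw [show g.1.1 v₂ = v₂ + (g.1.1 v₂ - v₂) by abel]
      rw [QuadraticMap.map_add ⇑Q, hT.sing _ (hdisp v₂).1, add_zero, add_eq_left] at hQ
      exact hQ
    rw [hq, zero_smul, add_zero] at h
    have hB := AutOmegaOdd.G_B g v₁ v₂
    rw [h11, show g.1.1 v₂ = v₂ + (g.1.1 v₂ - v₂) by abel, h, polar_add_left, polar_add_right,
      polar_add_right, polar_smul_left, polar_smul_left, polar_smul_right, polar_smul_right, e1a,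
      polar_comm Q b v₂, e2b, polar_comm Q b a, hab] at hB
    simp only [smul_eq_mul, mul_zero, mul_one, add_zero] at hB
    rw [show -r = polar Q v₁ (g.1.1 v₂ - v₂) by linear_combination -hB, ← h]
    abel
  refine ⟨r, G_ext fun v => ?_⟩
  have hz := hkill (v - polar Q v a • v₁ - polar Q v b • v₂)
    (by rw [polar_sub_left, polar_sub_left, polar_smul_left, polar_smul_left, e1a, e2a]; simp)
    (by rw [polar_sub_left, polar_sub_left, polar_smul_left, polar_smul_left, e1b, e2b]; simp)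
  rw [map_sub, map_sub, map_smul, map_smul, h11, h22] at hz
  rw [apply_of_TS hT.sing ha.1 ((T.smul_mem r hb.1)), polar_smul_right, smul_eq_mul]
  linear_combination (norm := module) hz

omit [Fintype F] [Finite V] in
theorem sg_swap {e a : V} (he : Q e = 0) (ha : Q a = 0) (hea : polar Q e a = 0) (r : F) :
    sg Q e (r • a) = sg Q a ((-r) • e) := G_ext fun v => by
  have h1 : polar Q e (r • a) = 0 := by rw [polar_smul_right, hea, smul_zero]
  have h2 : polar Q a ((-r) • e) = 0 := by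
    rw [polar_smul_right, polar_comm Q a e, hea, smul_zero]
  rw [sg_apply he h1, sg_apply ha h2]
  simp only [QuadraticMap.map_smul, polar_smul_right, he, ha, smul_eq_mul]
  module

/-- Different points have different root groups. -/
theorem UP_ne_UP (hG : Good Q) {e a : V} (he0 : e ≠ 0) (he : Q e = 0) (ha : Q a = 0)
    (hind : ∀ c : F, a ≠ c • e) : UP Q e ≠ UP Q a := fun h => by
  obtain ⟨p, hp⟩ := CharP.exists F
  obtain ⟨d, hp', -⟩ := FiniteField.card F p
  haveI : Fact p.Prime := ⟨hp'⟩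
  obtain ⟨y, hy, hey⟩ := hG.exists_partner he0 he
  obtain ⟨c, hc⟩ := U_fix hG ⟨he, hy, hey⟩ (v := a) fun r hr => by
    obtain ⟨r', hr', e'⟩ := (h ▸ (⟨r, hr, rfl⟩ : pr Q r ∈ UP Q e) : pr Q r ∈ UP Q a)
    rw [← eq_of_pr (p := p) hG (i := 1) (j := 1)
      (by rw [pow_one]; exact pow_p_of_mem_U ha hr')
      (by rw [pow_one]; exact pow_p_of_mem_U he hr) e']
    obtain ⟨u, hu, rfl⟩ := (mem_U ha).1 hr'
    rw [sg_apply ha hu]
    simp [polar_self, ha, hu]
  exact hind c hc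

/-- A semisimilitude fixing a long root group elementwise is linear. -/
theorem sigma_eq_one (hG : Good Q) (ψ : Semi Q) {a b : V} (ha : Q a = 0) (hb : Q b = 0)
    (hab : polar Q a b = 0) (hind : ∀ c : F, b ≠ c • a) (ha0 : a ≠ 0)
    (hfix : ∀ r : F, conjP ψ (pr Q (sg Q a (r • b))) = pr Q (sg Q a (r • b))) : ψ.σ = 1 := by
  obtain ⟨p, hp⟩ := CharP.exists F
  obtain ⟨d, hp', -⟩ := FiniteField.card F p
  haveI : Fact p.Prime := ⟨hp'⟩
  have har : ∀ r : F, polar Q a (r • b) = 0 := fun r => by rw [polar_smul_right, hab, smul_zero]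
  have hxa : Q (ψ.H⁻¹ • ψ.map a) = 0 := by
    rw [QuadraticMap.map_smul, ψ.map_Q, ha, map_zero, mul_zero, smul_zero]
  have hyb : Q (ψ.map b) = 0 := by rw [ψ.map_Q, hb, map_zero, mul_zero]
  have hxy : ∀ r : F, polar Q (ψ.H⁻¹ • ψ.map a) (ψ.σ r • ψ.map b) = 0 := fun r => by
    rw [polar_smul_left, polar_smul_right, ψ.map_B, hab, map_zero, mul_zero, smul_zero, smul_zero]
  have key : ∀ (r : F) (v : V),
      ψ.σ r • (polar Q v (ψ.H⁻¹ • ψ.map a) • ψ.map b -
        polar Q v (ψ.map b) • (ψ.H⁻¹ • ψ.map a)) =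
      r • (polar Q v a • b - polar Q v b • a) := by
    intro r v
    have h := hfix r
    rw [conjP_sg ψ ha (har r), ψ.map_smul] at h
    have h' := eq_of_pr (p := p) hG (i := 1) (j := 1)
      (by rw [pow_one]; exact sg_pow_p hxa (hxy r))
      (by rw [pow_one]; exact sg_pow_p ha (har r)) h
    have h2 := congrArg (fun g : G Q => g.1.1 v) h'
    simp only [sg_apply hxa (hxy r), sg_apply ha (har r), QuadraticMap.map_smul, hb, hyb,
      polar_smul_right, smul_eq_mul, mul_zero, zero_mul, zero_smul, sub_zero] at h2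
    rw [polar_smul_right, smul_eq_mul]
    linear_combination (norm := module) h2
  obtain ⟨y, hy, hay⟩ := hG.exists_partner ha0 ha
  have hd : polar Q y a • b - polar Q y b • a ≠ 0 := fun h => by
    rw [polar_comm Q y a, hay, one_smul, sub_eq_zero] at h
    exact hind _ h
  refine RingEquiv.ext fun r => ?_
  have h1 := key 1 y
  rw [map_one, one_smul, one_smul] at h1
  have h := key r y
  rw [h1, ← sub_eq_zero, ← sub_smul, smul_eq_zero, sub_eq_zero] at h
  exact h.resolve_right hd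

end gen

section four

variable {F : Type u} [Field F] [Fintype F]

theorem exists_omega_map {m : ℕ} (hm : 3 ≤ m) {U W : Submodule F (Fin m ⊕ Fin m → F)}
    (hU : MaxTS (plusQ m F) U) (hW : MaxTS (plusQ m F) W) (hp : sp U W = 1) :
    ∃ g : G (plusQ m F), imgS g.1 U = W := by
  classical
  have hQ := nd_plusQ (F := F) m
  have hX := maxTS_xPlane (F := F) m
  obtain ⟨a, ha⟩ := exists_map_TSing hQ hX.sing hU.sing (by have := hX.dim; have := hU.dim; omega)
  obtain ⟨b, hb⟩ := exists_map_TSing hQ hX.sing hW.sing (by have := hX.dim; have := hW.dim; omega)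
  have hg : imgS (b * a⁻¹) U = W := by
    rw [← ha, ← imgS_mul, inv_mul_cancel_right, hb]
  have hd : dick hQ (b * a⁻¹) = 1 := by rw [dick_eq_parS (reg_plusQ hm) _ hU, hg]; exact hp
  let S : Subgroup (isoG (plusQ m F)) := (stabS (plusQ m F) W)
  obtain ⟨h, hh, hmem⟩ := exists_mul_mem_commutator hQ (reg_plusQ hm) (b * a⁻¹) S (Or.inl hd) (by
    by_cases h2 : (2 : F) = 0
    · exact Or.inl h2
    · refine Or.inr ?_
      obtain ⟨ν, hν, hns⟩ := exists_nonsquare (F := F) h2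
      let d : Fin m → Fˣ := Pi.mulSingle ⟨0, by omega⟩ (Units.mk0 ν hν)
      obtain ⟨h1, h3⟩ := invs_scale (F := F) (m := m) h2 d
      set D := mapIso (ePlus m) (plus_ePlus m) (scaleHom m (zeroQ F) d)
      refine ⟨b * D * b⁻¹, ?_, by rw [map_mul, map_mul, map_inv, h1, mul_one, mul_inv_cancel],
        by rw [map_mul, map_mul, map_inv, mul_comm (spn hQ b), mul_inv_cancel_right, h3,
          Finset.prod_eq_single (⟨0, by omega⟩ : Fin m)
            (fun j _ hj => by simp [d, Pi.mulSingle_eq_of_ne hj]) (by simp)]; simp [d, sqSign, hns]⟩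
      show imgS (b * D * b⁻¹) W = W
      have hD : D ∈ stabS (plusQ m F) (xPlane m F) := mem_stabS_of_le fun v hv => by
        rw [mem_xPlane] at hv ⊢
        intro i
        rw [(scale_map d v i).2, hv i, mul_zero]
      conv_lhs => rw [← hb, ← imgS_mul, inv_mul_cancel_right, imgS_mul, show imgS D _ = _ from hD, hb])
  refine ⟨⟨h * (b * a⁻¹), by rw [← commutator_eq (good_plusQ hm)]; exact hmem⟩, ?_⟩
  rw [imgS_mul, hg]
  exact hh

theorem imgS_eq_map {V : Type v} [AddCommGroup V] [Module F V] {Q : QuadraticForm F V} (g : G Q)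
    (U : Submodule F V) : imgS g.1 U = U.map (g.1.1 : V →ₗ[F] V) := by
  ext v
  rw [mem_imgS]
  rfl

theorem conjP_ZP {m : ℕ} (hm : 3 ≤ m) (ψ : Semi (plusQ m F))
    {T : Submodule F (Fin m ⊕ Fin m → F)} (hT : MaxTS (plusQ m F) T) :
    (ZP (plusQ m F) T).map (conjP ψ).toMonoidHom = ZP (plusQ m F) (imgσ ψ T) := by
  have hT' := maxTS_imgσ ψ hT
  rw [ZP, ZP, Subgroup.map_map, ZT, ZT, MonoidHom.map_closure, MonoidHom.map_closure]
  congr 1
  ext z
  constructor
  · rintro ⟨_, ⟨a, ha, b, hb, rfl⟩, rfl⟩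
    exact ⟨_, ⟨_, Submodule.smul_mem _ ψ.H⁻¹ ⟨a, ha, rfl⟩, _, ⟨b, hb, rfl⟩, rfl⟩,
      (conjP_sg ψ (hT.sing a ha) (perp_of_TS hT.sing ha hb)).symm⟩
  · rintro ⟨_, ⟨a', ⟨a, ha, rfl⟩, b', ⟨b, hb, rfl⟩, rfl⟩, rfl⟩
    refine ⟨sg _ (ψ.σ.symm ψ.H • a) b, ⟨_, T.smul_mem _ ha, b, hb, rfl⟩, ?_⟩
    show conjP ψ (pr _ (sg _ (ψ.σ.symm ψ.H • a) b)) = _
    rw [conjP_sg ψ (hT.sing _ (T.smul_mem _ ha)) (perp_of_TS hT.sing (T.smul_mem _ ha) hb),
      ψ.map_smul, RingEquiv.apply_symm_apply, smul_smul, inv_mul_cancel₀ ψ.H0, one_smul]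

/-- The automorphism of `PΩ` modulo the centre. -/
noncomputable abbrev aP (m : ℕ) (F : Type u) [Field F] [Fintype F] :
    Semi (plusQ m F) →* MulAut (PG (plusQ m F)) := actP (plusQ m F)

theorem aP_conj {m : ℕ} (hm : 3 ≤ m) (g : G (plusQ m F)) :
    MulAut.conj (pr _ g) ∈ (properPlus (F := F) hm).P.map (aP m F) := by
  refine ⟨ofIso _ g.1, ((properPlus (F := F) hm).iso _).2 ?_, conjP_ofIso g⟩
  have h : g.1 ∈ commutator (isoG (plusQ m F)) := by
    rw [commutator_eq (good_plusQ hm)]; exact g.2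
  exact commutator_le_ker _ h

theorem sp_dim_four {T T' : Submodule F (Fin 4 ⊕ Fin 4 → F)} (hT : MaxTS (plusQ 4 F) T)
    (hT' : MaxTS (plusQ 4 F) T') (hp : sp T T' = 1) (hne : T ≠ T') :
    Module.finrank F (T ⊓ T' : Submodule F _) = 0 ∨ Module.finrank F (T ⊓ T' : Submodule F _) = 2 := by
  have h1 := ((maxTS_iff 4 T).1 hT).1
  have h1' := ((maxTS_iff 4 T').1 hT').1
  have hle := Submodule.finrank_mono (inf_le_left : T ⊓ T' ≤ T)
  have hev : ((-1 : ℤˣ) ^ Module.finrank F (T ⊓ T' : Submodule F _)) = 1 := by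
    rw [sp, parS, show ((-1 : ℤˣ)) ^ 4 = 1 from rfl, one_mul] at hp
    exact hp
  have h4 : Module.finrank F (T ⊓ T' : Submodule F _) ≠ 4 := fun h => hne <| by
    have e1 : T ⊓ T' = T := Submodule.eq_of_le_of_finrank_le inf_le_left (by omega)
    have e2 : T ⊓ T' = T' := Submodule.eq_of_le_of_finrank_le inf_le_right (by omega)
    rw [← e1, e2]
  generalize Module.finrank F (T ⊓ T' : Submodule F _) = k at hev hle h4 ⊢
  have hk : k = 0 ∨ k = 1 ∨ k = 2 ∨ k = 3 := by omega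
  rcases hk with rfl | rfl | rfl | rfl
  · exact Or.inl rfl
  · exact absurd hev (by decide)
  · exact Or.inr rfl
  · exact absurd hev (by decide)

/-- The inner-diagonal group is normalised by every automorphism. -/
theorem conj_mem_fix {m : ℕ} (hm : 4 ≤ m) (β : MulAut (PG (plusQ m F))) (s : Semi (plusQ m F))
    (hs : s ∈ (properPlus (F := F) (le_trans (by norm_num) hm)).P)
    {e a : Fin m ⊕ Fin m → F} (he : plusQ m F e = 0) (ha : plusQ m F a = 0)
    (hea : polar (plusQ m F) e a = 0) (hind : ∀ c : F, a ≠ c • e) (he0 : e ≠ 0) (ha0 : a ≠ 0)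
    (hfix : ∀ r : F, aP m F s (pr _ (sg _ e (r • a))) = pr _ (sg _ e (r • a))) :
    β * aP m F s * β⁻¹ ∈ (properPlus (F := F) (le_trans (by norm_num) hm)).P.map (aP m F) := by
  classical
  have hm3 : 3 ≤ m := le_trans (by norm_num) hm
  have hG : Good (plusQ m F) := good_plusQ hm3
  have hdimT : ∀ {T : Submodule F (Fin m ⊕ Fin m → F)}, MaxTS (plusQ m F) T → 2 ≤ Module.finrank F T :=
    fun hT => by have := ((maxTS_iff m _).1 hT).1; omega
  by_cases hpres : ∀ x, x ≠ 0 → (plusQ m F) x = 0 → ∃ y, y ≠ 0 ∧ (plusQ m F) y = 0 ∧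
      (UP (plusQ m F) x).map β.toMonoidHom = UP (plusQ m F) y
  · obtain ⟨g, φ, rfl⟩ := std_all_of hG hpres
    haveI := (properPlus (F := F) hm3).normal
    refine ⟨ofIso (plusQ m F) g.1 * φ * s * (ofIso (plusQ m F) g.1 * φ)⁻¹, (properPlus (F := F) hm3).normal.conj_mem s hs _, ?_⟩
    rw [map_mul, map_mul, map_mul, map_inv, map_mul, ← conjP_ofIso]
    rfl
  push Not at hpres
  obtain ⟨x₀, hx₀0, hx₀, hx₀β⟩ := hpres
  obtain ⟨T₀, hT₀, hhalf, h8, hβ₀⟩ := (map_U_or hG hx₀0 hx₀ β).resolve_left fun ⟨y, h1, h2, h3⟩ =>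
    hx₀β y h1 h2 h3
  have hm4 : m = 4 := by rw [finrank_plus] at h8; omega
  have hT₀' : MaxTS (plusQ m F) T₀ := ⟨hT₀, hhalf⟩
  -- the images of all points form one class
  have hall : ∀ x, x ≠ 0 → (plusQ m F) x = 0 → ∃ T, MaxTS (plusQ m F) T ∧ sp T₀ T = 1 ∧
      (UP (plusQ m F) x).map β.toMonoidHom = ZP (plusQ m F) T := by
    intro x hx0 hx
    obtain ⟨t, ht, htx⟩ := hG.exists_map_sing hx₀0 hx0 hx₀ hx
    obtain ⟨g', hg'⟩ := pr_surjective (β (pr (plusQ m F) ⟨t, ht⟩))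
    refine ⟨T₀.map (g'.1.1 : _ →ₗ[F] _), ?_, ?_, ?_⟩
    · rw [← imgS_eq_map]; exact hT₀'.img _
    · rw [← imgS_eq_map]
      have h := dick_eq_parS (reg_plusQ hm3) g'.1 hT₀'
      rw [commutator_le_ker (dick (nd_plusQ m)) (by
        rw [commutator_eq hG]; exact g'.2)] at h
      exact h.symm
    · rw [show UP (plusQ m F) x = (UP (plusQ m F) x₀).map (MulAut.conj (pr (plusQ m F) ⟨t, ht⟩)).toMonoidHom by
        rw [map_conj_UP _ hx₀]; exact congrArg _ htx.symm]
      rw [map_map_mul, show β * MulAut.conj (pr (plusQ m F) ⟨t, ht⟩) =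
        MulAut.conj (β (pr (plusQ m F) ⟨t, ht⟩)) * β from MulEquiv.ext fun y => by simp, ← hg', ← map_map_mul,
        hβ₀, ZP, ← map_conj_ZT g' hT₀, Subgroup.map_map, Subgroup.map_map]
      congr 1
  -- the preimages of all points as well
  have hback : ∀ y, y ≠ 0 → (plusQ m F) y = 0 → ∃ S, MaxTS (plusQ m F) S ∧ (ZP (plusQ m F) S).map β.toMonoidHom = UP (plusQ m F) y := by
    intro y hy0 hy
    rcases map_U_or hG hy0 hy β⁻¹ with ⟨z, hz0, hz, hzy⟩ | ⟨S, hS, hSd, -, hSy⟩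
    · exfalso
      obtain ⟨T, hT, -, hTz⟩ := hall z hz0 hz
      refine UP_ne_ZP hG hT (hdimT hT) hy0 hy ?_
      rw [← hTz, ← hzy, map_map_mul, mul_inv_cancel, map_one_aut]
    · refine ⟨S, ⟨hS, hSd⟩, ?_⟩
      rw [show ZP (plusQ m F) S = (UP (plusQ m F) y).map β⁻¹.toMonoidHom from hSy.symm, map_map_mul, mul_inv_cancel,
        map_one_aut]
  let g' := β * aP m F s * β⁻¹
  have hspol : pol m F s = 1 := MonoidHom.mem_ker.1 hs.2
  have hg'pres : ∀ y, y ≠ 0 → (plusQ m F) y = 0 → ∃ z, z ≠ 0 ∧ (plusQ m F) z = 0 ∧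
      (UP (plusQ m F) y).map g'.toMonoidHom = UP (plusQ m F) z := by
    intro y hy0 hy
    obtain ⟨S, hS, hSy⟩ := hback y hy0 hy
    obtain ⟨g₀, hg₀⟩ := exists_omega_map hm3 hS (maxTS_imgσ s hS)
      (by rw [sp_imgσ_self s hS, hspol])
    obtain ⟨g₁, hg₁⟩ := pr_surjective (β (pr (plusQ m F) g₀))
    refine ⟨g₁.1.1 y, fun h0 => hy0 (g₁.1.1.map_eq_zero_iff.1 h0), by rw [G_Q, hy], ?_⟩
    have e1 : (ZP (plusQ m F) S).map (aP m F s).toMonoidHom =
        (ZP (plusQ m F) S).map (MulAut.conj (pr (plusQ m F) g₀)).toMonoidHom := by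
      rw [show (ZP (plusQ m F) S).map (aP m F s).toMonoidHom = _ from conjP_ZP hm3 s hS, ← hg₀,
        imgS_eq_map, ZP, ZP, ← map_conj_ZT g₀ hS.sing, Subgroup.map_map, Subgroup.map_map]
      congr 1
    rw [← map_conj_UP g₁ hy, hg₁, ← hSy, map_map_mul, map_map_mul,
      show MulAut.conj (β (pr (plusQ m F) g₀)) * β = β * MulAut.conj (pr (plusQ m F) g₀) from MulEquiv.ext fun z => by simp,
      ← map_map_mul (ZP (plusQ m F) S) β, ← e1, map_map_mul]
    rw [show g' * β = β * aP m F s from inv_mul_cancel_right _ β]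
  obtain ⟨g₂, φ, hψ⟩ := std_all_of hG hg'pres
  let ψ := ofIso (plusQ m F) g₂.1 * φ
  have hgψ : g' = aP m F ψ := by rw [hψ, map_mul, ← conjP_ofIso]; rfl
  refine ⟨ψ, ?_, hgψ.symm⟩
  have hpolψ : pol m F ψ = 1 := by
    obtain ⟨T, hT, hsp, hTx⟩ := hall x₀ hx₀0 hx₀
    have hsx : (plusQ m F) (s.map x₀) = 0 := by rw [s.map_Q, hx₀, map_zero, mul_zero]
    have hsx0 : s.map x₀ ≠ 0 := fun h => hx₀0 (s.map.map_eq_zero_iff.1 h)
    obtain ⟨T', hT', hsp', hTx'⟩ := hall _ hsx0 hsx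
    have e : ZP (plusQ m F) T' = ZP (plusQ m F) (imgσ ψ T) := by
      rw [← conjP_ZP hm3 ψ hT, show conjP ψ = g' from hgψ.symm, ← hTx, ← hTx',
        ← conjP_UP s hx₀, map_map_mul, map_map_mul]
      rw [show g' * β = β * aP m F s from inv_mul_cancel_right _ β]
      rfl
    have e' := ZP_inj hG hT' (maxTS_imgσ ψ hT) (hdimT hT') e
    rw [← sp_imgσ_self ψ hT, ← e', sp_trans hT hT₀' hT', sp_symm, hsp, hsp', mul_one]
  refine ⟨?_, hpolψ⟩
  -- the field automorphism
  obtain ⟨p, hp⟩ := CharP.exists F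
  obtain ⟨d, hp', -⟩ := FiniteField.card F p
  haveI : Fact p.Prime := ⟨hp'⟩
  obtain ⟨Te, hTe, hspe, hTeβ⟩ := hall e he0 he
  obtain ⟨Ta, hTa, hspa, hTaβ⟩ := hall a ha0 ha
  have hne : Te ≠ Ta := fun h => UP_ne_UP hG he0 he ha hind (by
    have h' : (UP (plusQ m F) e).map β.toMonoidHom = (UP (plusQ m F) a).map β.toMonoidHom := by
      rw [hTeβ, hTaβ, h]
    exact Subgroup.map_injective β.injective h')
  have hsp2 : sp Te Ta = 1 := by rw [sp_trans hTe hT₀' hTa, sp_symm, hspe, hspa, mul_one]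
  have hdim : Module.finrank F (Te ⊓ Ta : Submodule F _) = 0 ∨
      Module.finrank F (Te ⊓ Ta : Submodule F _) = 2 := by
    subst hm4
    exact sp_dim_four hTe hTa hsp2 hne
  have her : ∀ r : F, polar (plusQ m F) e (r • a) = 0 := fun r => by
    rw [polar_smul_right, hea, smul_zero]
  have hpow : ∀ r : F, sg (plusQ m F) e (r • a) ^ p = 1 := fun r => sg_pow_p he (her r)
  have himg : ∀ r : F, ∃ g, g ∈ ZT (plusQ m F) Te ∧ g ∈ ZT (plusQ m F) Ta ∧
      β (pr _ (sg (plusQ m F) e (r • a))) = pr _ g := fun r => by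
    have h1 : β (pr _ (sg (plusQ m F) e (r • a))) ∈ ZP (plusQ m F) Te :=
      hTeβ ▸ ⟨_, ⟨_, sg_mem_U _ (her r), rfl⟩, rfl⟩
    have h2 : β (pr _ (sg (plusQ m F) e (r • a))) ∈ ZP (plusQ m F) Ta := by
      rw [sg_swap he ha hea]
      exact hTaβ ▸ ⟨_, ⟨_, sg_mem_U _ (by rw [polar_smul_right, polar_comm _ a e, hea, smul_zero]),
        rfl⟩, rfl⟩
    obtain ⟨g, hg, e1⟩ := h1
    obtain ⟨g', hg', e2⟩ := h2
    refine ⟨g, hg, ?_, e1.symm⟩
    rwa [eq_of_pr (p := p) hG (i := 1) (j := 1) (by rw [pow_one]; exact pow_p_of_mem_ZT hTe.sing hg)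
      (by rw [pow_one]; exact pow_p_of_mem_ZT hTa.sing hg') (e1.trans e2.symm)]
  choose G₀ hG1 hG2 hG3 using himg
  have hinj : ∀ r r' : F, G₀ r = G₀ r' → r = r' := fun r r' h => by
    have h1 : β (pr _ (sg (plusQ m F) e (r • a))) = β (pr _ (sg (plusQ m F) e (r' • a))) := by
      rw [hG3, hG3, h]
    have h2 := eq_of_pr (p := p) hG (i := 1) (j := 1) (by rw [pow_one]; exact hpow r)
      (by rw [pow_one]; exact hpow r') (β.injective h1)
    obtain ⟨y, hy, hey⟩ := hG.exists_partner he0 he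
    have h3 := congrArg (fun g : G (plusQ m F) => g.1.1 y) h2
    simp only [sg_apply he (her _), QuadraticMap.map_smul, ha, smul_eq_mul, mul_zero, zero_smul,
      polar_smul_right, polar_comm _ y e, hey, one_smul] at h3
    by_contra hne'
    refine hind (polar (plusQ m F) y a) ?_
    have h4 : (r - r') • (a - polar (plusQ m F) y a • e) = 0 := by
      linear_combination (norm := module) h3
    exact sub_eq_zero.1 ((smul_eq_zero.1 h4).resolve_left (sub_ne_zero.2 hne'))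
  rcases exists_sg_of_two hG hTe hTa hdim with htriv | ⟨a', b', ha', hb', hab', hind', ha0', hsg⟩
  · exact absurd (hinj 1 0 (by rw [htriv _ (hG1 1) (hG2 1), htriv _ (hG1 0) (hG2 0)])) one_ne_zero
  choose f hf using fun r => hsg (G₀ r) (hG1 r) (hG2 r)
  have hfinj : Function.Injective f := fun r r' h => hinj r r' (by rw [hf, hf r', h])
  have hfsurj := Finite.injective_iff_surjective.1 hfinj
  refine sigma_eq_one hG ψ ha' hb' hab' hind' ha0' fun r' => ?_
  obtain ⟨r, rfl⟩ := hfsurj r'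
  rw [← hf, ← hG3]
  show aP m F ψ (β _) = β _
  rw [← hgψ]
  show β (aP m F s (β⁻¹ (β _))) = β _
  rw [MulAut.inv_apply_self, hfix]

/-- The inner-diagonal group is normalised by every automorphism. -/
theorem conj_mem_proper {m : ℕ} (hm : 4 ≤ m) (β : MulAut (PG (plusQ m F))) (s : Semi (plusQ m F))
    (hs : s ∈ (properPlus (F := F) (le_trans (by norm_num) hm)).P) :
    β * aP m F s * β⁻¹ ∈ (properPlus (F := F) (le_trans (by norm_num) hm)).P.map (aP m F) := by
  classical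
  have hm3 : 3 ≤ m := le_trans (by norm_num) hm
  let M : Subgroup (Semi (plusQ m F)) :=
    (((properPlus (F := F) hm3).P.map (aP m F)).comap (MulAut.conj β).toMonoidHom).comap (aP m F)
  suffices h : s ∈ M from h
  have hmemM : ∀ t : Semi (plusQ m F),
      β * aP m F t * β⁻¹ ∈ (properPlus (F := F) hm3).P.map (aP m F) → t ∈ M := fun t ht => ht
  have i0 : 0 < m := by omega
  have i1 : 1 < m := by omega
  have i2 : 2 < m := by omega
  have hQ1 : ∀ i, plusQ m F (Pi.single i 1) = 0 := fun i => by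
    rw [plusQ_apply, Cfsg.quadFormPlus]
    refine Finset.sum_eq_zero fun j _ => ?_
    rcases i with i | i <;> simp
  have hB : ∀ (i j : Fin m), i ≠ j → ∀ x y : Fin m ⊕ Fin m,
      (x = .inl i ∨ x = .inr i) → (y = .inl j ∨ y = .inr j) →
      polar (plusQ m F) (Pi.single x 1) (Pi.single y 1) = 0 ∧
      (∀ c : F, (Pi.single y 1 : Fin m ⊕ Fin m → F) ≠ c • Pi.single x 1) := by
    intro i j hij x y hx hy
    refine ⟨?_, fun c h => ?_⟩
    · rw [QuadraticMap.polar, hQ1, hQ1, sub_zero, sub_zero, plusQ_apply, Cfsg.quadFormPlus]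
      refine Finset.sum_eq_zero fun l _ => ?_
      rcases hx with rfl | rfl <;> rcases hy with rfl | rfl <;>
        simp [Pi.single_apply] <;> intros <;> subst_vars <;> simp_all [hij.symm]
    · have h1 := congrFun h y
      have hyx : y ≠ x := by
        rcases hx with rfl | rfl <;> rcases hy with rfl | rfl <;> simp [hij.symm]
      simp [hyx] at h1
  have hne0 : ∀ x, (Pi.single x 1 : Fin m ⊕ Fin m → F) ≠ 0 := fun x h => by
    simpa using congrFun h x
  -- diagonal similitudes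
  have hdiag : ∀ u : Fˣ, diagPlus m u ∈ M := fun u => by
    obtain ⟨hpo, hin⟩ := hB ⟨0, i0⟩ ⟨1, i1⟩ (by simp) _ _ (Or.inl rfl) (Or.inr rfl)
    refine hmemM _ (conj_mem_fix hm β _ (mem_Pp.2 ⟨rfl, pol_diagPlus u⟩) (hQ1 _) (hQ1 _) hpo hin
      (hne0 _) (hne0 _) fun r => ?_)
    show conjP _ _ = _
    rw [conjP_sg _ (hQ1 _) (by rw [polar_smul_right, hpo, smul_zero])]
    have e1 : (diagPlus m u).H⁻¹ • (diagPlus m u).map (Pi.single (Sum.inl ⟨0, i0⟩) 1) =
        Pi.single (Sum.inl ⟨0, i0⟩) 1 := by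
      funext x
      show (u : F)⁻¹ * _ = _
      rcases x with i | i
      · rw [(diagPlus_map u _ i).1, ← mul_assoc, inv_mul_cancel₀ u.ne_zero, one_mul]
      · rw [(diagPlus_map u _ i).2]; simp
    have e2 : (diagPlus m u).map (r • Pi.single (Sum.inr ⟨1, i1⟩) 1) =
        r • Pi.single (Sum.inr ⟨1, i1⟩) 1 := by
      funext x
      rcases x with i | i
      · rw [(diagPlus_map u _ i).1]; simp
      · rw [(diagPlus_map u _ i).2]
    rw [e1, e2]
  -- commutators
  have hcomm : ∀ k : isoG (plusQ m F), k ∈ commutator (isoG (plusQ m F)) → ofIso _ k ∈ M := fun k hk => by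
    refine hmemM _ ?_
    let g : G (plusQ m F) := ⟨k, by rwa [commutator_eq (good_plusQ hm3)] at hk⟩
    obtain ⟨g', hg'⟩ := pr_surjective (β (pr _ g))
    have e : β * aP m F (ofIso _ k) * β⁻¹ = MulAut.conj (pr _ g') := by
      rw [show aP m F (ofIso _ k) = MulAut.conj (pr _ g) from conjP_ofIso g, hg']
      exact MulEquiv.ext fun z => by simp
    rw [e]
    exact aP_conj hm3 g'
  -- the proper isometries
  have hiso : ∀ k : isoG (plusQ m F), dick (nd_plusQ m) k = 1 → ofIso _ k ∈ M := by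
    intro k hk
    have hscale : ∀ u : Fˣ, ofIso _ (mapIso (ePlus m) (plus_ePlus m)
        (scaleHom m (zeroQ F) (Pi.mulSingle ⟨0, i0⟩ u))) ∈ M := fun u => by
      set D := mapIso (ePlus m) (plus_ePlus m) (scaleHom m (zeroQ F) (Pi.mulSingle ⟨0, i0⟩ u))
        with hD
      have hdick : ofIso (plusQ m F) D ∈ (properPlus (F := F) hm3).P := by
        refine ⟨rfl, pol_of_map fun v hv => ?_⟩
        rw [mem_xPlane] at hv ⊢
        intro i
        rw [ofIso_map, hD, (scale_map _ v i).2, hv i, mul_zero]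
      obtain ⟨hpo, hin⟩ := hB ⟨1, i1⟩ ⟨2, i2⟩ (by simp) _ _ (Or.inl rfl) (Or.inl rfl)
      refine hmemM _ (conj_mem_fix hm β _ hdick (hQ1 _) (hQ1 _) hpo hin
        (hne0 _) (hne0 _) fun r => ?_)
      show conjP _ _ = _
      rw [conjP_sg _ (hQ1 _) (by rw [polar_smul_right, hpo, smul_zero]), ofIso_H, inv_one, one_smul]
      have hfx : ∀ j : Fin m, j ≠ ⟨0, i0⟩ → ∀ c : F,
          (ofIso (plusQ m F) D).map (c • Pi.single (Sum.inl j) 1) =
            c • Pi.single (Sum.inl j) 1 := fun j hj c => by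
        rw [ofIso_map]
        funext x
        rcases x with i | i
        · rw [hD, (scale_map _ _ i).1]
          by_cases hij : i = j
          · subst hij; simp [Pi.mulSingle_eq_of_ne hj]
          · simp [hij]
        · rw [hD, (scale_map _ _ i).2]; simp
      rw [show (ofIso (plusQ m F) D).map (Pi.single (Sum.inl ⟨1, i1⟩) 1) =
          Pi.single (Sum.inl ⟨1, i1⟩) 1 by simpa using hfx ⟨1, i1⟩ (by simp) 1,
        hfx ⟨2, i2⟩ (by simp) r]
    obtain ⟨h, hh, hmem⟩ := exists_mul_mem_commutator (nd_plusQ m) (reg_plusQ hm3) k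
      (M.comap (ofIso _)) (Or.inl hk) (by
        by_cases h2 : (2 : F) = 0
        · exact Or.inl h2
        · refine Or.inr ?_
          obtain ⟨ν, hν, hns⟩ := exists_nonsquare (F := F) h2
          obtain ⟨h1, h3⟩ := invs_scale (F := F) (m := m) h2 (Pi.mulSingle ⟨0, i0⟩ (Units.mk0 ν hν))
          refine ⟨_, hscale _, h1, h3.trans ?_⟩
          rw [Finset.prod_eq_single (⟨0, i0⟩ : Fin m)
            (fun j _ hj => by simp [Pi.mulSingle_eq_of_ne hj]) (by simp)]
          simp [sqSign, hns])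
    have e : ofIso (plusQ m F) k = (ofIso _ h)⁻¹ * ofIso _ (h * k) := by
      rw [map_mul, inv_mul_cancel_left]
    rw [e]
    exact mul_mem (inv_mem hh) (hcomm _ hmem)
  obtain ⟨k, hk⟩ := exists_iso_part (g := s) (s := diagPlus m (Units.mk0 s.H s.H0))
    (hs.1) rfl rfl
  have hdk : dick (nd_plusQ m) k = 1 := by
    rw [← pol_ofIso (reg_plusQ hm3)]
    have h := (mem_Pp.1 hs).2
    rw [hk, map_mul, pol_diagPlus, one_mul] at h
    exact h
  rw [hk]
  exact mul_mem (hdiag _) (hiso k hdk)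

/-- The inner-diagonal automorphisms form a normal subgroup. -/
theorem normal_inndiag_plus {m : ℕ} (hm : 4 ≤ m) : (Cfsg.inndiagPOmegaPlus m F).Normal := by
  have hm3 : 3 ≤ m := le_trans (by norm_num) hm
  rw [(properPlus (F := F) hm3).eq]
  constructor
  rintro _ ⟨t, ht, rfl⟩ β
  obtain ⟨β', rfl⟩ := (MulAut.congr (toPG (fun v => plusQ_apply (F := F) m v) (good_plusQ hm3)).symm).surjective β
  obtain ⟨t', ht', e⟩ := conj_mem_proper hm β' t ht
  refine ⟨t', ht', ?_⟩
  rw [act, MonoidHom.comp_apply, MonoidHom.comp_apply, MulEquiv.coe_toMonoidHom,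
    ← map_inv, ← map_mul, ← map_mul, e]

end four

end Cfsg.Agent.Lib.AutOmega
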