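import Cfsg.Agent.Lib.AutOmega.SpinCentral
import Cfsg.Agent.Lib.AutOmega.Parity
import Cfsg.Agent.Lib.AutOmega.Inndiag
import Cfsg.Agent.Lib.AutOmega.Models
import Cfsg.Agent.Lib.AutOmega.Classes
import Cfsg.Agent.Lib.Classical.OrthTorsionClasses
import Cfsg.Agent.Lib.AutPSL.Congruence

/-!
Classes of semisimple automorphisms of odd prime order of orthogonal groups in odd characteristic do not
split between `Ω`, `SO` and the proper similitudes, nor between `O` and all similitudes.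
-/

set_option autoImplicit false
set_option linter.unusedSectionVars false

namespace Cfsg.Agent.Lib.AutOmega.SemiClasses

open QuadraticMap hiding proj
open Cfsg.Agent.Lib.Classical.Quad Cfsg.Agent.Lib.Classical.QuadOmega
open Cfsg.Agent.Lib.AutOmegaOdd (G Semi)

universe u

variable {F : Type u} [Field F] {ι : Type} [Fintype ι] [DecidableEq ι]

/-- The determinant of a similitude of a non-degenerate alternating form. -/
theorem det_alt_sim {n : ℕ} (e : ι ≃ Fin n ⊕ Fin n) (B : LinearMap.BilinForm F (ι → F)) (hA : B.IsAlt)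
    (hB : B.SeparatingLeft) (L : (ι → F) →ₗ[F] (ι → F)) {c : F} (hc : c ≠ 0)
    (hL : ∀ x y, B (L x) (L y) = c * B x y) : LinearMap.det L = c ^ n := by
  classical
  have hJ : (Matrix.toBilin' (Matrix.J (Fin n) F)).Nondegenerate :=
    LinearMap.BilinForm.nondegenerate_toBilin'_of_det_ne_zero' _ (Matrix.isUnit_det_J (Fin n) F).ne_zero
  have hJa : (Matrix.toBilin' (Matrix.J (Fin n) F)).IsAlt := fun x => by
    simp [Matrix.toBilin'_apply, Matrix.J, Fintype.sum_sum_type, Matrix.one_apply, mul_comm]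
  obtain ⟨E, hE⟩ := Forms.exists_alt_isometry B hA hB (Matrix.toBilin' (Matrix.J (Fin n) F)) hJa hJ.1
    (by rw [Module.finrank_fintype_fun_eq_card, Module.finrank_fintype_fun_eq_card, Fintype.card_congr e])
  set M := LinearMap.toMatrix' (E.conj L) with hM
  have hMJ : M.transpose * Matrix.J (Fin n) F * M = c • Matrix.J (Fin n) F := by
    apply Matrix.toBilin'.injective
    refine LinearMap.ext fun x => LinearMap.ext fun y => ?_
    rw [← Matrix.toBilin'_comp, LinearMap.BilinForm.comp_apply, map_smul, LinearMap.smul_apply, LinearMap.smul_apply,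
      smul_eq_mul, hM, Matrix.toLin'_toMatrix']
    simp only [LinearEquiv.conj_apply_apply, hE, hL]
    rw [← hE, E.apply_symm_apply, E.apply_symm_apply]
  let D : Matrix (Fin n ⊕ Fin n) (Fin n ⊕ Fin n) F :=
    Matrix.fromBlocks (c⁻¹ • (1 : Matrix (Fin n) (Fin n) F)) 0 0 1
  have hD : D.transpose * Matrix.J (Fin n) F * D = c⁻¹ • Matrix.J (Fin n) F := by
    simp [D, Matrix.J, Matrix.fromBlocks_transpose, Matrix.fromBlocks_multiply, Matrix.fromBlocks_smul]
  have hsp : M * D ∈ Matrix.symplecticGroup (Fin n) F := by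
    rw [SymplecticGroup.mem_iff', Matrix.transpose_mul,
      show D.transpose * M.transpose * Matrix.J (Fin n) F * (M * D) =
        D.transpose * (M.transpose * Matrix.J (Fin n) F * M) * D by simp only [mul_assoc],
      hMJ, Matrix.mul_smul, Matrix.smul_mul, hD, smul_smul, mul_inv_cancel₀ hc, one_smul]
  have h1 := SymplecticGroup.det_eq_one hsp
  have hdD : D.det = (c ^ n)⁻¹ := by
    simp [D, Matrix.det_smul, inv_pow]
  have hdet : LinearMap.det L = M.det := by
    rw [hM, LinearMap.det_toMatrix', LinearEquiv.conj_apply]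
    exact (LinearMap.det_conj L E).symm
  rw [Matrix.det_mul, hdD, ← hdet] at h1
  exact (mul_inv_eq_one₀ (pow_ne_zero n hc)).1 h1

variable [Fintype F] {f : (ι → F) → F} {Q : QuadraticForm F (ι → F)} (hf : ∀ v, Q v = f v) (hG : Good Q)

omit [DecidableEq ι] [Fintype F] in
theorem negOne_comm (g : isoG Q) : Commute (negOne Q) g :=
  iso_ext fun v => by
    rw [Subgroup.coe_mul, Subgroup.coe_mul, LinearEquiv.mul_apply, LinearEquiv.mul_apply, negOne_apply,
      negOne_apply, map_neg]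

include hf hG in
/-- The automorphism is induced by an isometry of order `r`. -/
theorem exists_lift {x : MulAut (Cfsg.POmega F f)} (hx : x ∈ Cfsg.pgoAut F f) {r : ℕ} (hro : Odd r)
    (hxr : orderOf x = r) : ∃ h : isoG Q, h ^ r = 1 ∧ act hf hG (ofIso Q h) = x := by
  rw [pgoAut_eq hf hG] at hx
  obtain ⟨ψ, hψ, rfl⟩ := hx
  have hσ : (ψ ^ (r + 1)).σ = 1 := by
    rw [← sigmaHom_apply, map_pow, sigmaHom_apply, show ψ.σ = 1 from hψ, one_pow]
  obtain ⟨s, hs⟩ : IsSquare (ψ ^ (r + 1)).H := by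
    rw [← sqSign_eq_one_iff, ← mc_apply, map_pow]
    obtain ⟨k, hk⟩ := hro
    rw [hk, show 2 * k + 1 + 1 = 2 * (k + 1) by ring, pow_mul, pow_two, Int.units_mul_self, one_pow]
  have hs0 : s ≠ 0 := fun e => (ψ ^ (r + 1)).H0 (by rw [hs, e, mul_zero])
  obtain ⟨h, hh⟩ := eq_scalar_iso hσ (c := Units.mk0 s hs0) hs
  have hx' : act hf hG (ofIso Q h) = act hf hG ψ := by
    have e := congrArg (act hf hG) hh
    rw [map_mul, act_ofScalar, one_mul, map_pow, pow_succ, ← hxr, pow_orderOf_eq_one, one_mul] at e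
    exact e.symm
  have h1 : act hf hG (ofIso Q (h ^ r)) = 1 := by
    rw [map_pow, map_pow, hx', ← hxr, pow_orderOf_eq_one]
  obtain ⟨c, hc⟩ := (act_eq_one_iff hf hG).1 h1
  have hH := congrArg Semi.H hc
  rw [ofIso_H, ofScalar_H] at hH
  rcases mul_self_eq_one_iff.1 hH.symm with e | e
  · obtain rfl : c = 1 := Units.ext e
    rw [map_one, ← map_one (ofIso Q)] at hc
    exact ⟨h, ofIso_injective hc, hx'⟩
  · obtain rfl : c = -1 := Units.ext (by simpa using e)
    rw [ofScalar_negOne] at hc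
    have hh := ofIso_injective hc
    refine ⟨negOne Q * h, ?_, ?_⟩
    · obtain ⟨k, hk⟩ := hro
      have hnn : negOne Q * negOne Q = 1 := iso_ext fun v => neg_neg v
      rw [(negOne_comm h).mul_pow, hh, hk, pow_succ, pow_mul, pow_two, hnn, one_pow, one_mul]
      exact hnn
    · rw [map_mul, map_mul, ← ofScalar_negOne, act_ofScalar, one_mul, hx']

theorem det_iso (hQ : Nd Q) (h2 : (2 : F) ≠ 0) (hf : ∀ v, Q v = f v) (k : isoG Q) :
    LinearMap.det (k.1 : (ι → F) →ₗ[F] (ι → F)) = (((dick hQ k : ℤˣ) : ℤ) : F) := by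
  obtain ⟨g, rfl⟩ := (toI hf).surjective k
  rw [← det_toI hQ (reg_of_two_ne_zero h2) hf g, ← LinearMap.det_toLin']
  congr 1

/-- A similitude of non-square multiplier centralising an element of odd order, proper. -/
theorem exists_sim_centralising (h2 : (2 : F) ≠ 0) {p : ℕ} [Fact p.Prime] [CharP F p] (hf : ∀ v, Q v = f v)
    {G : Subgroup (MulAut (Cfsg.POmega F f))} (D : Proper hf hG G) {n : ℕ} (e : ι ≃ Fin n ⊕ Fin n)
    {s : Semi Q} (hsP : s ∈ D.P) (hsσ : s.σ = 1) (hns : ¬ IsSquare s.H)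
    (hsdet : LinearMap.det (linOf s hsσ : (ι → F) →ₗ[F] (ι → F)) = s.H ^ n)
    {h : isoG Q} {r : ℕ} (hr : Odd r) (hrp : r.Coprime p) (hh : h ^ r = 1) :
    ∃ φ ∈ D.P, ¬ IsSquare φ.H ∧ Commute φ (ofIso Q h) := by
  classical
  have hQ : Nd Q := hG.nd
  have hc : (s.conjI h).1.toLinearMap.charpoly = h.1.toLinearMap.charpoly := by
    rw [show (s.conjI h).1.toLinearMap = (linOf s hsσ).conj h.1.toLinearMap from LinearMap.ext fun v => rfl,
      LinearEquiv.charpoly_conj]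
  obtain ⟨k, hk⟩ := isConj_iff.1 (Classical.OrthTorsion.isConj_of_charpoly (p := p) hQ hr hrp
    (A := s.conjI h) (B := h) (by rw [← map_pow, hh, map_one]) hh hc)
  have hcom : ∀ l : isoG Q, l * h = h * l →
      Commute (ofIso Q (l * k) * s) (ofIso Q h) := fun l hl => by
    show _ * _ = _ * _
    rw [mul_assoc, mul_ofIso, ← mul_assoc, ← mul_assoc, ← map_mul, ← map_mul]
    congr 2
    rw [mul_assoc l, mul_inv_eq_iff_eq_mul.mp hk, ← mul_assoc, hl, mul_assoc]
  have hH : ∀ l : isoG Q, ¬ IsSquare (ofIso Q l * s).H := fun l => by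
    simpa using hns
  by_cases hd : dick hQ k = 1
  · refine ⟨ofIso Q (1 * k) * s, mul_mem ((D.iso _).2 ?_) hsP, hH _, hcom 1 (by rw [one_mul, mul_one])⟩
    rw [one_mul]; exact hd
  have hd' : dick hQ k = -1 := (Int.units_eq_one_or _).resolve_left hd
  by_cases hW : ∃ w, Q w ≠ 0 ∧ h.1 w = w
  · obtain ⟨w, hw, hhw⟩ := hW
    refine ⟨ofIso Q (refl Q w * k) * s, mul_mem ((D.iso _).2 ?_) hsP, hH _, hcom _ ?_⟩
    · rw [map_mul, dick_refl _ hw, hd']; rfl
    · have e1 := refl_conj (Q := Q) (g := h) hw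
      rw [hhw] at e1
      conv_lhs => rw [← e1]
      rw [inv_mul_cancel_right]
  exfalso
  -- the alternating form attached to a fixed-point-free element
  have hfix : ∀ x, h.1 x = x → x = 0 := by
    intro x hx
    refine hQ x fun y => ?_
    have hr0 : (r : F) ≠ 0 := by
      rw [Ne, CharP.cast_eq_zero_iff F p]
      exact fun hd => (Fact.out : p.Prime).not_dvd_one (hrp.gcd_eq_one ▸ Nat.dvd_gcd hd dvd_rfl)
    have hW' : ∀ z, h.1 z = z → Q z = 0 := fun z hz => by_contra fun e => hW ⟨z, e, hz⟩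
    set z := ∑ i ∈ Finset.range r, (h ^ i).1 y with hz
    have hxi : ∀ i : ℕ, (h ^ i).1 x = x := by
      intro i
      induction i with
      | zero => rfl
      | succ i ih => rw [pow_succ, Subgroup.coe_mul, LinearEquiv.mul_apply, hx, ih]
    have hzf : h.1 z = z := by
      rw [hz, map_sum]
      have : ∀ i, h.1 ((h ^ i).1 y) = (h ^ (i + 1)).1 y := fun i => by
        rw [pow_succ', Subgroup.coe_mul, LinearEquiv.mul_apply]
      rw [Finset.sum_congr rfl fun i _ => this i]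
      have h1 := Finset.sum_range_succ (fun i => (h ^ i).1 y) r
      rw [Finset.sum_range_succ', hh, pow_zero] at h1
      exact add_right_cancel h1
    have hxz : polar Q x z = 0 := by
      rw [polar, hW' _ (by rw [map_add, hx, hzf]), hW' x hx, hW' z hzf, sub_zero, sub_zero]
    have hsum : polar Q x z = r • polar Q x y := by
      rw [hz, ← polarBilin_apply_apply, map_sum, Finset.sum_congr rfl (fun i _ => ?_), Finset.sum_const,
        Finset.card_range]
      rw [polarBilin_apply_apply]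
      conv_lhs => rw [← hxi i]
      exact SpinCentral.polar_iso _
    rw [hxz, nsmul_eq_mul, eq_comm, mul_eq_zero] at hsum
    exact hsum.resolve_left hr0
  let B : LinearMap.BilinForm F (ι → F) :=
    (polarBilin Q).comp (h.1 : (ι → F) →ₗ[F] (ι → F)) - (polarBilin Q).compl₂ (h.1 : (ι → F) →ₗ[F] (ι → F))
  have hB : ∀ x y, B x y = polar Q (h.1 x) y - polar Q x (h.1 y) := fun x y => rfl
  have hBA : B.IsAlt := fun x => by rw [hB, polar_comm Q (h.1 x) x, sub_self]
  have hBN : B.SeparatingLeft := by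
    intro x hx
    have h2x : (h ^ 2).1 x = x := by
      refine sub_eq_zero.1 (hQ _ fun z => ?_)
      have := hx z
      rw [hB, ← SpinCentral.polar_iso h (x := h.1 x) (y := z), ← polar_sub_left] at this
      obtain ⟨w, rfl⟩ := h.1.surjective z
      have e1 := hx w
      rw [hB, sub_eq_zero] at e1
      rw [polar_sub_left, sub_eq_zero, pow_two, Subgroup.coe_mul, LinearEquiv.mul_apply, SpinCentral.polar_iso h]
      exact e1
    refine hfix x ?_
    obtain ⟨j, hj⟩ := hr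
    have e3 : ∀ i : ℕ, (h ^ (2 * i)).1 x = x := by
      intro i
      induction i with
      | zero => rfl
      | succ i ih => rw [Nat.mul_succ, pow_add, Subgroup.coe_mul, LinearEquiv.mul_apply, h2x, ih]
    calc h.1 x = (h ^ (2 * j + 1)).1 x := by rw [pow_succ', Subgroup.coe_mul, LinearEquiv.mul_apply, e3]
      _ = x := by rw [← hj, hh]; rfl
  have hφσ : (ofIso Q k * s).σ = 1 := by simp [hsσ]
  have hφc := hcom 1 (by rw [one_mul, mul_one])
  rw [one_mul] at hφc
  set φ := ofIso Q k * s with hφ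
  have hLh : ∀ x, φ.map (h.1 x) = h.1 (φ.map x) := fun x => by
    have := congrArg (fun t : Semi Q => t.map x) hφc.eq
    simpa using this
  have hdetφ := det_alt_sim e B hBA hBN (linOf φ hφσ : (ι → F) →ₗ[F] (ι → F)) φ.H0 fun x y => by
    show B (φ.map x) (φ.map y) = _
    rw [hB, hB, ← hLh, ← hLh, φ.map_B, φ.map_B, hφσ, RingAut.one_apply, RingAut.one_apply, mul_sub]
  rw [show (linOf φ hφσ : (ι → F) →ₗ[F] (ι → F)) = (k.1 : (ι → F) →ₗ[F] (ι → F)).comp
      (linOf s hsσ : (ι → F) →ₗ[F] (ι → F)) from LinearMap.ext fun v => rfl,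
    LinearMap.det_comp, det_iso hQ h2 hf, hd', hsdet] at hdetφ
  have hHφ : φ.H = s.H := by simp [hφ]
  rw [hHφ, Units.val_neg, Units.val_one, Int.cast_neg, Int.cast_one, neg_one_mul, neg_eq_iff_add_eq_zero,
    ← two_mul] at hdetφ
  exact (mul_ne_zero h2 (pow_ne_zero n s.H0)) hdetφ

theorem conj_of_decomp {X : Type*} [Group X] {H K : Subgroup X} {x : X}
    (h : ∀ a ∈ K, ∃ i ∈ H, ∃ c, Commute c x ∧ a = i * c) {y : X}
    (hy : Cfsg.IsConjUnder K x y) : Cfsg.IsConjUnder H x y := by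
  obtain ⟨a, ha, rfl⟩ := hy
  obtain ⟨i, hi, c, hc, rfl⟩ := h a ha
  refine ⟨i, hi, ?_⟩
  rw [_root_.mul_inv_rev, show i * c * x * (c⁻¹ * i⁻¹) = i * (c * x * c⁻¹) * i⁻¹ by group, hc.eq, mul_inv_cancel_right]

theorem isConjUnder_mono {X : Type*} [Group X] {H K : Subgroup X} (hle : H ≤ K) {x y : X}
    (h : Cfsg.IsConjUnder H x y) : Cfsg.IsConjUnder K x y := let ⟨a, ha, e⟩ := h; ⟨a, hle ha, e⟩

include hf hG in
/-- The classes do not split. -/
theorem fusion (Dd : Dat Q) (h2 : (2 : F) ≠ 0) {p : ℕ} [Fact p.Prime] [CharP F p]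
    {G : Subgroup (MulAut (Cfsg.POmega F f))} (D : Proper hf hG G) {n : ℕ} (e : ι ≃ Fin n ⊕ Fin n)
    {s : Semi Q} (hsP : s ∈ D.P) (hsσ : s.σ = 1) (hns : ¬ IsSquare s.H)
    (hsdet : LinearMap.det (linOf s hsσ : (ι → F) →ₗ[F] (ι → F)) = s.H ^ n)
    {x : MulAut (Cfsg.POmega F f)} (hx : x ∈ Cfsg.pgoAut F f) {r : ℕ} (hr : r.Prime) (hro : Odd r)
    (hrp : r ≠ p) (hxr : orderOf x = r) :
    (∀ y, (Cfsg.IsConjUnder (Cfsg.Inn (Cfsg.POmega F f)) x y ↔ Cfsg.IsConjUnder G x y) ∧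
      (Cfsg.IsConjUnder (Cfsg.psoAut F f) x y ↔ Cfsg.IsConjUnder G x y)) ∧
      ∀ y, Cfsg.IsConjUnder (Cfsg.poAut F f) x y ↔ Cfsg.IsConjUnder (Cfsg.pgoAut F f) x y := by
  classical
  have hQ : Nd Q := hG.nd
  obtain ⟨h, hh, rfl⟩ := exists_lift hf hG hx hro hxr
  have hrcop : r.Coprime p := (Nat.coprime_primes hr Fact.out).2 hrp
  have hh1 : h ≠ 1 := fun e1 => by
    rw [e1, map_one, map_one, orderOf_one] at hxr
    exact hr.ne_one hxr.symm
  obtain ⟨φ, hφP, hφns, hφc⟩ := exists_sim_centralising hG h2 (p := p) hf D e hsP hsσ hns hsdet hro hrcop hh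
  obtain ⟨k₀, hk₀d, hk₀s, hk₀c⟩ := SpinCentral.exists_spn_neg hQ h2 p hro hrcop hh hh1
  have hcomm : ∀ {ψ : Semi Q}, Commute ψ (ofIso Q h) → Commute (act hf hG ψ) (act hf hG (ofIso Q h)) :=
    fun hc => hc.map (act hf hG)
  -- reduction of the multiplier
  have step : ∀ g : Semi Q, g.σ = 1 → ∃ (a : isoG Q) (φ' : Semi Q), Commute φ' (ofIso Q h) ∧ φ' ∈ D.P ∧
      ∃ c : Fˣ, g = ofScalar Q c * ofIso Q a * φ' := by
    intro g hg
    by_cases hsq : IsSquare g.H
    · obtain ⟨t, ht⟩ := hsq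
      obtain ⟨a, ha⟩ := eq_scalar_iso hg (c := Units.mk0 t (fun e => g.H0 (by rw [ht, e, mul_zero]))) ht
      exact ⟨a, 1, Commute.one_left _, one_mem _, _, by rw [mul_one]; exact ha⟩
    · have hσ : (g * φ⁻¹).σ = 1 := by
        rw [← sigmaHom_apply, map_mul, map_inv, sigmaHom_apply, sigmaHom_apply, hg, show φ.σ = 1 from D.le hφP, inv_one, one_mul]
      have hsq' : IsSquare (g * φ⁻¹).H := by
        rw [← sqSign_eq_one_iff, ← mc_apply, map_mul, map_inv, mc_apply, mc_apply, sqSign, sqSign,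
          if_neg hsq, if_neg hφns]
        rfl
      obtain ⟨t, ht⟩ := hsq'
      obtain ⟨a, ha⟩ := eq_scalar_iso hσ
        (c := Units.mk0 t (fun e => (g * φ⁻¹).H0 (by rw [ht, e, mul_zero]))) ht
      exact ⟨a, φ, hφc, hφP, _, by rw [← ha, inv_mul_cancel_right]⟩
  have hInn : ∀ a : isoG Q, dick hQ a = 1 → spn hQ a = 1 → act hf hG (ofIso Q a) ∈ Cfsg.Inn (Cfsg.POmega F f) :=
    fun a hd hs => by
      rw [inn_eq hf hG]
      exact ⟨a, (mem_siegel_iff hG h2 a).2 ⟨hd, hs⟩, rfl⟩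
  have hG' : ∀ β ∈ G, ∃ i ∈ Cfsg.Inn (Cfsg.POmega F f), ∃ c, Commute c (act hf hG (ofIso Q h)) ∧ β = i * c := by
    rw [D.eq]
    rintro _ ⟨g, hg, rfl⟩
    obtain ⟨a, φ', hc', hP', c, rfl⟩ := step g (D.le hg)
    have had : dick hQ a = 1 := (D.iso a).1 (by
      have := D.P.mul_mem (D.P.mul_mem (D.P.inv_mem (D.scalar c)) hg) (D.P.inv_mem hP')
      rwa [mul_assoc (ofScalar Q c), inv_mul_cancel_left, mul_inv_cancel_right] at this)
    rw [map_mul, map_mul, act_ofScalar, one_mul]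
    rcases Int.units_eq_one_or (spn hQ a) with hs | hs
    · exact ⟨_, hInn a had hs, _, hcomm hc', rfl⟩
    · refine ⟨_, hInn (a * k₀⁻¹) (by rw [map_mul, map_inv, had, hk₀d, inv_one, one_mul])
        (by rw [map_mul, map_inv, hs, hk₀s]; rfl), act hf hG (ofIso Q k₀ * φ'), hcomm ?_, ?_⟩
      · refine Commute.mul_left ?_ hc'
        show _ * _ = _ * _
        rw [← map_mul, ← map_mul, hk₀c]
      · rw [← map_mul, ← map_mul, ← mul_assoc, ← map_mul, inv_mul_cancel_right]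
  have hpso : Cfsg.psoAut F f ≤ G := by
    rw [psoAut_eq Dd hf, D.eq]
    exact Subgroup.map_mono (by
      rintro _ ⟨a, ha, rfl⟩
      exact (D.iso a).2 ha)
  have hinn : Cfsg.Inn (Cfsg.POmega F f) ≤ Cfsg.psoAut F f := by
    rw [psoAut_eq Dd hf, inn_eq hf hG, ← Subgroup.map_map]
    exact Subgroup.map_mono (Subgroup.map_mono fun a ha => ((mem_siegel_iff hG h2 a).1 ha).1)
  have hpo : Cfsg.poAut F f ≤ Cfsg.pgoAut F f := by
    refine (Subgroup.closure_le _).2 ?_
    rintro β ⟨g, hg, hi⟩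
    refine Subgroup.subset_closure ⟨g, ⟨1, fun v => ?_⟩, hi⟩
    rw [Units.val_one, one_mul]
    exact hg v v
  have hpgo : ∀ β ∈ Cfsg.pgoAut F f, ∃ i ∈ Cfsg.poAut F f, ∃ c,
      Commute c (act hf hG (ofIso Q h)) ∧ β = i * c := by
    rw [pgoAut_eq hf hG]
    rintro _ ⟨g, hg, rfl⟩
    obtain ⟨a, φ', hc', -, c, rfl⟩ := step g hg
    rw [map_mul, map_mul, act_ofScalar, one_mul]
    refine ⟨_, Subgroup.subset_closure ?_, _, hcomm hc', rfl⟩
    obtain ⟨g', hg', hi⟩ := pair_of_semi hf hG (ofIso Q a)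
    obtain ⟨⟨g'', hg''⟩, rfl⟩ := (toI hf).surjective a
    obtain rfl : g' = g'' := Units.ext (Matrix.ext_of_mulVec_single fun i => hg' _)
    exact ⟨g', hg'', hi⟩
  refine ⟨fun y => ⟨⟨fun hy => isConjUnder_mono (hinn.trans hpso) hy, conj_of_decomp hG'⟩,
    ⟨isConjUnder_mono hpso, fun hy => isConjUnder_mono hinn (conj_of_decomp hG' hy)⟩⟩,
    fun y => ⟨isConjUnder_mono hpo, conj_of_decomp hpgo⟩⟩

end Cfsg.Agent.Lib.AutOmega.SemiClasses

namespace Cfsg.Agent.Lib.AutOmega.SemiClasses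

open QuadraticMap hiding proj
open Cfsg.Agent.Lib.Classical.Quad Cfsg.Agent.Lib.Classical.QuadOmega Cfsg.Agent.Lib.Classical.QuadF2
open Cfsg.Agent.Lib.AutOmegaOdd (G Semi)

universe u

variable {F : Type u} [Field F] [Fintype F]

theorem plus_fusion {p : ℕ} [Fact p.Prime] [CharP F p] (hp : p ≠ 2) {m : ℕ} (hm : 3 ≤ m)
    (x : MulAut (Cfsg.POmega F (Cfsg.quadFormPlus m F))) (hx : x ∈ Cfsg.pgoAut F (Cfsg.quadFormPlus m F))
    {r : ℕ} (hr : r.Prime) (hro : Odd r) (hrp : r ≠ p) (hxr : orderOf x = r) :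
    (∀ y, (Cfsg.IsConjUnder (Cfsg.Inn (Cfsg.POmega F (Cfsg.quadFormPlus m F))) x y ↔
        Cfsg.IsConjUnder (Cfsg.inndiagPOmegaPlus m F) x y) ∧
      (Cfsg.IsConjUnder (Cfsg.psoAut F (Cfsg.quadFormPlus m F)) x y ↔
        Cfsg.IsConjUnder (Cfsg.inndiagPOmegaPlus m F) x y)) ∧
      ∀ y, Cfsg.IsConjUnder (Cfsg.poAut F (Cfsg.quadFormPlus m F)) x y ↔
        Cfsg.IsConjUnder (Cfsg.pgoAut F (Cfsg.quadFormPlus m F)) x y := by
  classical
  have h2 : (2 : F) ≠ 0 := Ring.two_ne_zero (by rw [ringChar.eq F p]; exact hp)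
  obtain ⟨Dd, -⟩ := exists_dat_plus (F := F) hm h2
  obtain ⟨ν, hν⟩ := FiniteField.exists_nonsquare (F := F) (by rw [ringChar.eq F p]; exact hp)
  have hν0 : ν ≠ 0 := fun e => hν (e ▸ IsSquare.zero)
  refine fusion (fun v => plusQ_apply m v) (good_plusQ hm) Dd h2 (p := p) (properPlus hm) (Equiv.refl _)
    (s := diagPlus m (Units.mk0 ν hν0)) ⟨rfl, pol_diagPlus _⟩ rfl hν ?_ hx hr hro hrp hxr
  rw [← LinearMap.det_toMatrix', show LinearMap.toMatrix' (linOf (diagPlus m (Units.mk0 ν hν0)) rfl :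
      (Fin m ⊕ Fin m → F) →ₗ[F] _) = Matrix.diagonal (Sum.elim (fun _ => ν) fun _ => (1 : F)) from ?_,
    Matrix.det_diagonal, Fintype.prod_sum_type]
  · simp [diagPlus]
  · ext i j
    rw [LinearMap.toMatrix'_apply, Matrix.diagonal_apply]
    rcases i with i | i
    · show (diagPlus m (Units.mk0 ν hν0)).map _ (Sum.inl i) = _
      rw [(diagPlus_map _ _ i).1]
      simp [Pi.single_apply]
    · show (diagPlus m (Units.mk0 ν hν0)).map _ (Sum.inr i) = _
      rw [(diagPlus_map _ _ i).2]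
      simp [Pi.single_apply]

theorem minus_fusion {p : ℕ} [Fact p.Prime] [CharP F p] (hp : p ≠ 2) {m : ℕ} (hm : 3 ≤ m) (a b : F)
    (hab : Aniso a b) (x : MulAut (Cfsg.POmega F (Cfsg.quadFormMinus m F a b)))
    (hx : x ∈ Cfsg.pgoAut F (Cfsg.quadFormMinus m F a b))
    {r : ℕ} (hr : r.Prime) (hro : Odd r) (hrp : r ≠ p) (hxr : orderOf x = r) :
    (∀ y, (Cfsg.IsConjUnder (Cfsg.Inn (Cfsg.POmega F (Cfsg.quadFormMinus m F a b))) x y ↔
        Cfsg.IsConjUnder (Cfsg.inndiagPOmegaMinus m F a b) x y) ∧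
      (Cfsg.IsConjUnder (Cfsg.psoAut F (Cfsg.quadFormMinus m F a b)) x y ↔
        Cfsg.IsConjUnder (Cfsg.inndiagPOmegaMinus m F a b) x y)) ∧
      ∀ y, Cfsg.IsConjUnder (Cfsg.poAut F (Cfsg.quadFormMinus m F a b)) x y ↔
        Cfsg.IsConjUnder (Cfsg.pgoAut F (Cfsg.quadFormMinus m F a b)) x y := by
  classical
  have h2 : (2 : F) ≠ 0 := Ring.two_ne_zero (by rw [ringChar.eq F p]; exact hp)
  obtain ⟨Dd, -⟩ := exists_dat_minus hab hm h2
  obtain ⟨ν, hν⟩ := FiniteField.exists_nonsquare (F := F) (by rw [ringChar.eq F p]; exact hp)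
  have hν0 : ν ≠ 0 := fun e => hν (e ▸ IsSquare.zero)
  obtain ⟨w, hw⟩ := exists_binQ_eq hab ν
  have hw0 : binQ a b w ≠ 0 := by rw [hw]; exact hν0
  refine fusion (fun v => minusQ_apply m a b v) (good_minusQ hab hm) Dd h2 (p := p) (properMinus hab hm)
    (n := m + 1) (Fintype.equivOfCardEq (by
      rw [Fintype.card_sum, Fintype.card_sum, Fintype.card_sum]
      simp only [Fintype.card_fin]; omega))
    (s := shapeMinus m hab w hw0) (shape_mem hab (by omega) w hw0) rfl (fun hs => hν (hw ▸ hs)) ?_ hx hr hro hrp hxr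
  let A : (Fin m → F) →ₗ[F] (Fin m → F) := binQ a b w • LinearMap.id
  have hL : (linOf (shapeMinus m hab w hw0) rfl : ((Fin m ⊕ Fin m) ⊕ Fin 2 → F) →ₗ[F] _) =
      (eMinus m : _ ≃ₗ[F] _).conj ((A.prodMap LinearMap.id).prodMap (mulW a b w)) := by
    refine LinearMap.ext fun v => ?_
    obtain ⟨⟨⟨u₁, u₂⟩, u₃⟩, rfl⟩ := (eMinus m).surjective v
    rw [LinearEquiv.conj_apply_apply, LinearEquiv.symm_apply_apply]
    show (shapeMinus m hab w hw0).map _ = _
    simp only [shapeMinus, LinearEquiv.toAddEquiv, LinearEquiv.trans_apply, LinearEquiv.symm_apply_apply]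
    simp [A]
    rfl
  rw [hL, LinearEquiv.conj_apply, LinearMap.comp_assoc, LinearMap.det_conj, LinearMap.det_prodMap, LinearMap.det_prodMap,
    LinearMap.det_id, mul_one, LinearMap.det_smul, LinearMap.det_id, mul_one, Module.finrank_fin_fun]
  show _ * LinearMap.det (Matrix.mulVecLin _) = (binQ a b w) ^ (m + 1)
  rw [show Matrix.mulVecLin !![w 0, -b * w 1; w 1, w 0 + a * w 1] =
    Matrix.toLin' !![w 0, -b * w 1; w 1, w 0 + a * w 1] from rfl, LinearMap.det_toLin', Matrix.det_fin_two, pow_succ]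
  congr 1
  rw [binQ_apply]
  simp
  ring

end Cfsg.Agent.Lib.AutOmega.SemiClasses
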