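import Cfsg.Agent.Lib.AutOmega.Outer
import Cfsg.Agent.Lib.AutOmega.Inndiag

/-!
The quotients of the conformal groups by the inner automorphisms.
-/

set_option autoImplicit false

namespace Cfsg.Agent.Lib.AutOmega

open QuadraticMap hiding proj
open Cfsg.Agent.Lib.Classical.Quad Cfsg.Agent.Lib.Classical.QuadOmega
open Cfsg.Agent.Lib.AutOmegaOdd (G Semi)

universe u

variable {F : Type u} [Field F] [Fintype F] {ι : Type} [Fintype ι] [DecidableEq ι]
  {f : (ι → F) → F} {Q : QuadraticForm F (ι → F)}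

namespace Dat

variable (hf : ∀ v, Q v = f v) (D : Dat Q)

include hf D in
theorem pgo_pso : ∃ φ : ↥(Cfsg.pgoAut F f) →* Multiplicative (ZMod 2 × ZMod 2),
    Function.Surjective φ ∧ φ.ker = (Cfsg.psoAut F f).subgroupOf (Cfsg.pgoAut F f) := by
  rw [psoAut_eq D hf, pgoAut_eq hf D.good]
  exact D.pgo_mod_pso hf

include hf in
theorem relIndex_pso : (Cfsg.Inn (Cfsg.POmega F f)).relIndex (Cfsg.psoAut F f) =
    if spn D.nd (negOne Q) = -1 then 1 else 2 := by
  rw [psoAut_eq D hf]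
  exact D.relIndex_special hf

include hf in
theorem pgo_inn_abelian (hν : spn D.nd (negOne Q) = -1) :
    ∃ φ : ↥(Cfsg.pgoAut F f) →* Multiplicative (ZMod 2 × ZMod 2),
      Function.Surjective φ ∧
        φ.ker = (Cfsg.Inn (Cfsg.POmega F f)).subgroupOf (Cfsg.pgoAut F f) := by
  rw [pgoAut_eq hf D.good]
  exact exists_hom_of_map _ _ _ (signsEquiv.toMonoidHom.comp D.inv2)
    (signsEquiv.surjective.comp D.inv2_surjective) fun a => by
      rw [D.act_mem_inn_iff hf a.2 hν, MonoidHom.comp_apply, MulEquiv.coe_toMonoidHom,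
        MulEquiv.map_eq_one_iff]
      exact (Prod.mk_eq_one (x := mc Q a.1) (y := D.del a.1)).symm

include hf in
theorem pgo_inn_dihedral (hν : spn D.nd (negOne Q) ≠ -1) :
    ∃ φ : ↥(Cfsg.pgoAut F f) →* DihedralGroup 4, Function.Surjective φ ∧
      φ.ker = (Cfsg.Inn (Cfsg.POmega F f)).subgroupOf (Cfsg.pgoAut F f) := by
  rw [pgoAut_eq hf D.good]
  exact D.hom_of_out_equiv hf (D.pgo_dihedral hf fun h => hν ((D.zE_eq_one hf).1 h))

include hf in
theorem proper_two (hν : spn D.nd (negOne Q) = -1) :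
    ∃ φ : ↥(D.proper.map (act hf D.good)) →* Multiplicative (ZMod 2), Function.Surjective φ ∧
      φ.ker = (Cfsg.Inn (Cfsg.POmega F f)).subgroupOf (D.proper.map (act hf D.good)) := by
  refine exists_hom_of_map _ _ _ (signEquiv.toMonoidHom.comp ((mc Q).comp D.proper.subtype))
    (signEquiv.surjective.comp fun e => ⟨⟨D.pw e, D.mem_proper.2 ⟨D.pw_σ e, ?_⟩⟩, D.mc_pw e⟩) fun a => ?_
  · unfold pw
    split_ifs
    · rw [← map_one (ofIso Q), D.del_iso, map_one]
    · exact D.del_g0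
  · obtain ⟨hσ, hd⟩ := D.mem_proper.1 a.2
    rw [D.act_mem_inn_iff hf hσ hν, MonoidHom.comp_apply, MulEquiv.coe_toMonoidHom,
      MulEquiv.map_eq_one_iff, MonoidHom.comp_apply, Subgroup.coe_subtype]
    exact ⟨fun h => h.1, fun h => ⟨h, hd⟩⟩

include hf in
theorem proper_cyclic (hν : spn D.nd (negOne Q) ≠ -1) (hε : spn D.nd D.h0 = -1) :
    ∃ φ : ↥(D.proper.map (act hf D.good)) →* Multiplicative (ZMod 4), Function.Surjective φ ∧
      φ.ker = (Cfsg.Inn (Cfsg.POmega F f)).subgroupOf (D.proper.map (act hf D.good)) := by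
  refine D.hom_of_out_equiv hf ?_
  rw [D.map_proper hf]
  refine cyclic_four (fun h => hν ((D.zE_eq_one hf).1 h)) (D.zz hf) ?_
  rw [D.xx hf]
  exact D.outMk_iso_congr hf (by rw [D.h0d, D.dick_isoOf]) (by rw [hε, D.spn_isoOf])

include hf in
theorem proper_klein (hν : spn D.nd (negOne Q) ≠ -1) (hε : spn D.nd D.h0 = 1) :
    ∃ φ : ↥(D.proper.map (act hf D.good)) →* Multiplicative (ZMod 2 × ZMod 2), Function.Surjective φ ∧
      φ.ker = (Cfsg.Inn (Cfsg.POmega F f)).subgroupOf (D.proper.map (act hf D.good)) := by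
  refine D.hom_of_out_equiv hf ?_
  rw [D.map_proper hf]
  have hn : D.zE hf ≠ 1 := fun h => hν ((D.zE_eq_one hf).1 h)
  refine klein_four hn (D.zz hf) (D.xE_not hf hn).1 (D.xE_not hf hn).2 (D.xz hf) ?_
  rw [D.xx hf, D.outMk_iso_eq_one hf]
  exact ⟨D.h0d, Or.inl hε⟩

end Dat

end Cfsg.Agent.Lib.AutOmega
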