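import Cfsg.Agent.Lib.GS.OrthOrderPN
import Cfsg.Agent.Lib.SemisimpleConj
import Cfsg.Agent.Lib.GLn.SemisimpleCharpoly
import Cfsg.Agent.Lib.InvolNorm

/-!
An isometry of odd prime order in odd characteristic commutes with a proper isometry of non-trivial
spinor norm: an element of full order of a torus of the centraliser, whose permutation of the vectors of
norm one is odd.
-/

set_option autoImplicit false
set_option linter.unusedSectionVars false

namespace Cfsg.Agent.Lib.AutOmega.SpinCentral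

open QuadraticMap Cfsg.Agent.Lib.Classical.Quad Cfsg.Agent.Lib.Classical.QuadOmega Cfsg.Agent.Lib.GS

attribute [local instance] _root_.Classical.propDecidable

universe u v

variable {F : Type u} [Field F] [Fintype F] {V : Type v} [AddCommGroup V] [Module F V] [Finite V]
  {Q : QuadraticForm F V}

omit [Fintype F] [Finite V] in
theorem polar_iso (g : isoG Q) {x y : V} : polar Q (g.1 x) (g.1 y) = polar Q x y := by
  simp only [polar, ← map_add, iso_Q]

theorem dvd_card_of_free {X : Type*} [Finite X] (e : Equiv.Perm X) {N : ℕ}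
    (h : ∀ j : ℕ, ∀ x : X, (e ^ j) x = x ↔ N ∣ j) : N ∣ Nat.card X := by
  rcases isEmpty_or_nonempty X with hX | ⟨⟨x0⟩⟩
  · simp
  have : Fintype X := Fintype.ofFinite X
  have heN : e ^ N = 1 := Equiv.ext fun x => (h N x).2 dvd_rfl
  let Z := Subgroup.zpowers e
  have hcard : Nat.card Z = N := by
    rw [Nat.card_zpowers]
    exact Nat.dvd_antisymm (orderOf_dvd_of_pow_eq_one heN)
      ((h _ x0).1 (by rw [pow_orderOf_eq_one]; rfl))
  have hfree : ∀ x : X, MulAction.stabilizer Z x = ⊥ := fun x => by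
    rw [eq_bot_iff]
    rintro ⟨z, hz⟩ hs
    obtain ⟨j, rfl⟩ : ∃ j : ℕ, e ^ j = z :=
      mem_powers_iff_mem_zpowers.2 hz
    have hj : (e ^ j) x = x := hs
    obtain ⟨t, rfl⟩ := (h j x).1 hj
    rw [Subgroup.mem_bot]
    exact Subtype.ext (show e ^ (N * t) = 1 by rw [pow_mul, heN, one_pow])
  rw [Nat.card_congr (MulAction.selfEquivSigmaOrbitsQuotientStabilizer Z X), Nat.card_sigma, ← hcard]
  refine Finset.dvd_sum fun ω _ => ?_
  rw [hfree]
  rw [Nat.card_congr (QuotientGroup.quotientBot (G := Z)).toEquiv]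

theorem finrank_fixS_add_even {g : isoG Q} (hQ : Nd Q) {r : ℕ} (hr : Odd r) (hg : g ^ r = 1) :
    Even (Module.finrank F V + Module.finrank F (fixS g)) := by
  by_contra hne
  have h1 := congrArg (dick hQ) hg
  obtain ⟨k, hk⟩ := hr
  rw [map_pow, map_one, hk, pow_succ, pow_mul, pow_two, Int.units_mul_self, one_pow, one_mul, dick_eq,
    (Nat.not_even_iff_odd.1 hne).neg_one_pow] at h1
  exact absurd h1 (by decide)

/-- The spinor norm of an element acting semiregularly off a complement of its fixed space. -/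
theorem spn_of_semiregular (hQ : Nd Q) (h2 : (2 : F) ≠ 0) {k : isoG Q} {U U' : Submodule F V}
    (hc : IsCompl U U') (ho : ∀ x ∈ U, ∀ y ∈ U', polar Q x y = 0) (hk' : ∀ y ∈ U', k.1 y = y)
    (hU : ∀ x ∈ U, k.1 x ∈ U) {N : ℕ} (hN : Even N) (hN1 : N ≠ 1)
    (hfree : ∀ j : ℕ, ∀ x ∈ U, x ≠ 0 → ((k ^ j).1 x = x ↔ N ∣ j))
    (hodd : Odd (Nat.card {x : U // Q (x : V) = 1} / N)) (hd : dick hQ k = 1) : spn hQ k = -1 := by
  let proj := Submodule.prodEquivOfIsCompl U U' hc
  have hU' : ∀ (j : ℕ), ∀ y ∈ U', (k ^ j).1 y = y := by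
    intro j
    induction j with
    | zero => intro y _; rfl
    | succ j ih => intro y hy; rw [pow_succ, Subgroup.coe_mul, LinearEquiv.mul_apply, hk' y hy, ih y hy]
  have hdec : ∀ (j : ℕ) (v : V), (k ^ j).1 v = v ↔ N ∣ j ∨ (proj.symm v).1 = 0 := by
    intro j v
    obtain ⟨⟨w, u⟩, rfl⟩ := proj.surjective v
    rw [LinearEquiv.symm_apply_apply]
    show (k ^ j).1 ((w : V) + u) = w + u ↔ _
    rw [map_add, hU' j u u.2, add_left_inj]
    by_cases hw : (w : V) = 0
    · rw [hw, map_zero]; exact iff_of_true rfl (Or.inr (Subtype.ext hw))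
    · rw [hfree j w w.2 hw]
      exact ⟨Or.inl, fun h => h.resolve_right fun e => hw (congrArg Subtype.val e)⟩
  let X := {v : ((Fin 3 → F) × (Fin 3 → F)) × V // splitQ 3 Q v = 1}
  have : Fintype X := Fintype.ofFinite X
  set σ : Equiv.Perm X := permOne (splitQ 3 Q) (bigHom Q k) with hσ
  have hσj : ∀ (j : ℕ) (v : X), ((σ ^ j) v).1 = (v.1.1, (k ^ j).1 v.1.2) := fun j v => by
    rw [hσ, ← map_pow, ← map_pow]; rfl
  have hσ1 : ∀ v : X, (σ v).1 = (v.1.1, k.1 v.1.2) := fun v => rfl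
  have hsemi : ∀ j : ℕ, ∀ v : X, σ v ≠ v → ((σ ^ j) v = v ↔ N ∣ j) := by
    intro j v hv
    have hne : ¬ (proj.symm v.1.2).1 = 0 := fun h0 => hv (Subtype.ext (by
      rw [hσ1]; exact Prod.ext rfl (by have := (hdec 1 v.1.2).2 (Or.inr h0); rwa [pow_one] at this)))
    rw [Subtype.ext_iff, hσj, Prod.ext_iff]
    simp only [true_and]
    rw [hdec]
    simp [hne]
  rw [spn, MonoidHom.mul_apply, MonoidHom.comp_apply, MonoidHom.comp_apply, hd, map_one, mul_one]
  unfold sgnOne
  rw [MonoidHom.comp_apply, ← hσ]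
  refine (OrthPN.sign_semiregular _ hN hsemi).trans ?_
  let Y := ((Fin 3 → F) × (Fin 3 → F)) × U'
  let RY : Y → F := fun y => splitQ 3 (Q.comp U'.subtype) y
  let E : {v : X // σ v ≠ v} ≃ Σ y : Y, {w : U // Q (w : V) = 1 - RY y ∧ w ≠ 0} :=
    { toFun := fun v => ⟨(v.1.1.1, (proj.symm v.1.1.2).2), (proj.symm v.1.1.2).1, by
        constructor
        · have h1 := v.1.2
          set y := proj.symm v.1.1.2 with hy
          have hv2 : v.1.1.2 = (y.1 : V) + y.2 := by
            rw [hy, ← Submodule.coe_prodEquivOfIsCompl' U U' hc, LinearEquiv.apply_symm_apply]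
          rw [splitQ_apply, hv2, QuadraticMap.map_add ⇑Q, ho _ y.1.2 _ y.2.2, add_zero] at h1
          simp only [RY, splitQ_apply, QuadraticMap.comp_apply, Submodule.subtype_apply]
          linear_combination h1
        · intro h0
          refine v.2 (Subtype.ext ?_)
          rw [hσ1]
          exact Prod.ext rfl (by have := (hdec 1 _).2 (Or.inr h0); rwa [pow_one] at this)⟩
      invFun := fun z => ⟨⟨(z.1.1, (z.2.1 : V) + (z.1.2 : V)), by
          have h1 := z.2.2.1
          simp only [RY, splitQ_apply, QuadraticMap.comp_apply, Submodule.subtype_apply] at h1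
          rw [splitQ_apply, QuadraticMap.map_add ⇑Q, ho _ z.2.1.2 _ z.1.2.2, add_zero]
          linear_combination h1⟩, fun h0 => by
          have h1 := congrArg (fun x : X => x.1.2) h0
          simp only [hσ1] at h1
          rcases (hdec 1 _).1 (by rwa [pow_one]) with h2' | h2'
          · exact hN1 (Nat.dvd_one.1 h2')
          · refine z.2.2.2 ?_
            rw [show (z.2.1 : V) + (z.1.2 : V) = proj (z.2.1, z.1.2) from rfl, LinearEquiv.symm_apply_apply] at h2'
            exact h2'⟩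
      left_inv := fun v => by
        refine Subtype.ext (Subtype.ext (Prod.ext rfl ?_))
        show ((proj.symm v.1.1.2).1 : V) + (proj.symm v.1.1.2).2 = v.1.1.2
        rw [← Submodule.coe_prodEquivOfIsCompl' U U' hc, LinearEquiv.apply_symm_apply]
      right_inv := by
        rintro ⟨⟨x, u⟩, ⟨w, hw⟩⟩
        have e : proj.symm ((w : V) + (u : V)) = (w, u) := by
          rw [show (w : V) + (u : V) = proj (w, u) from rfl, LinearEquiv.symm_apply_apply]
        refine Sigma.subtype_ext ?_ ?_ <;> simp [e] }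
  have hdvd : ∀ c : F, N ∣ Nat.card {w : U // Q (w : V) = c ∧ w ≠ 0} := by
    intro c
    let L : Equiv.Perm {w : U // Q (w : V) = c ∧ w ≠ 0} := Equiv.ofBijective
      (fun w => ⟨⟨k.1 (w.1 : V), hU _ w.1.2⟩, (iso_Q k _).trans w.2.1, fun e => w.2.2 (Subtype.ext
        (k.1.injective ((congrArg Subtype.val e).trans (map_zero _).symm)))⟩)
      (Finite.injective_iff_bijective.1 fun a b e => Subtype.ext (Subtype.ext (k.1.injective
        (congrArg (fun x : {w : U // Q (w : V) = c ∧ w ≠ 0} => (x.1 : V)) e))))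
    refine dvd_card_of_free L fun j w => ?_
    have hL : ∀ j : ℕ, (((L ^ j) w).1 : V) = (k ^ j).1 (w.1 : V) := by
      intro j
      induction j with
      | zero => rfl
      | succ j ih =>
        rw [pow_succ', pow_succ', Equiv.Perm.mul_apply, Subgroup.coe_mul, LinearEquiv.mul_apply, ← ih]
        rfl
    rw [← hfree j (w.1 : V) w.1.2 (fun e => w.2.2 (Subtype.ext e)), ← hL, Subtype.ext_iff, Subtype.ext_iff]
  choose s hs using hdvd
  have : Fintype Y := Fintype.ofFinite Y
  have hD' : Nat.card {v : X // σ v ≠ v} = N * ∑ y : Y, s (1 - RY y) := by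
    rw [Nat.card_congr E, Nat.card_sigma, Finset.mul_sum]
    exact Finset.sum_congr rfl fun y _ => hs (1 - RY y)
  have hN0 : 0 < N := by
    rcases Nat.eq_zero_or_pos N with rfl | h
    · simp at hodd
    · exact h
  have h1 : Nat.card {x : U // Q (x : V) = 1} = N * s 1 := by
    rw [← hs]
    exact Nat.card_congr (Equiv.subtypeEquivRight fun x => ⟨fun h => ⟨h, fun e => by
      rw [e, Submodule.coe_zero, map_zero] at h; exact zero_ne_one h⟩, fun h => h.1⟩)
  have hs1 : Odd (s 1) := by rwa [h1, Nat.mul_div_cancel_left _ hN0] at hodd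
  have hpar : ((∑ y : Y, s (1 - RY y) : ℕ) : ZMod 2) = 1 := by
    push_cast
    rw [← Finset.add_sum_erase _ _ (Finset.mem_univ (0 : Y))]
    have h0 : RY 0 = 0 := map_zero _
    rw [h0, sub_zero, ZMod.natCast_eq_one_iff_odd.2 hs1]
    suffices ∑ y ∈ Finset.univ.erase (0 : Y), (s (1 - RY y) : ZMod 2) = 0 by rw [this, add_zero]
    refine Finset.sum_involution (fun y _ => -y) (fun y _ => ?_) (fun y hy _ => ?_) (fun y hy => ?_) (fun y _ => neg_neg y)
    · simp only [RY, QuadraticMap.map_neg]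
      exact CharTwo.add_self_eq_zero _
    · intro h1
      have hy0 := (Finset.mem_erase.1 hy).1
      refine hy0 ((smul_eq_zero.1 (?_ : (2 : F) • y = 0)).resolve_left h2)
      rw [two_smul]
      conv_lhs => arg 1; rw [← h1]
      exact neg_add_cancel y
    · simpa using (Finset.mem_erase.1 hy).1
  rw [hD', Nat.mul_div_cancel_left _ hN0, (ZMod.natCast_eq_one_iff_odd.1 hpar).neg_one_pow]

/-- The algebra generated by a map which leaves no proper subspace invariant. -/
theorem adjoin_irreducible {U : Type v} [AddCommGroup U] [Module F U] [Finite U] (a : Module.End F U)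
    (hirr : ∀ P : Submodule F U, (∀ x ∈ P, a x ∈ P) → P = ⊥ ∨ P = ⊤) {u₀ : U} (hu₀ : u₀ ≠ 0) :
    (∀ z ∈ Algebra.adjoin F {a}, z ≠ 0 → ∀ x : U, z x = 0 → x = 0) ∧
      Function.Bijective (fun z : Algebra.adjoin F {a} => (z : Module.End F U) u₀) := by
  have hker : ∀ z ∈ Algebra.adjoin F {a}, z ≠ 0 → ∀ x : U, z x = 0 → x = 0 := by
    intro z hz hz0 x hx
    have hca : Commute a z := Algebra.commute_of_mem_adjoin_singleton_of_commute hz (Commute.refl a)
    rcases hirr (LinearMap.ker z) (fun y hy => by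
      rw [LinearMap.mem_ker] at hy ⊢
      rw [← Module.End.mul_apply, ← hca.eq, Module.End.mul_apply, hy, map_zero]) with h | h
    · have : x ∈ LinearMap.ker z := hx
      rwa [h, Submodule.mem_bot] at this
    · exact absurd (LinearMap.ker_eq_top.1 h) hz0
  refine ⟨hker, fun z w e => ?_, fun x => ?_⟩
  · by_contra hne
    exact hu₀ (hker _ (Subalgebra.sub_mem _ z.2 w.2) (sub_ne_zero.2 fun e' => hne (Subtype.ext e')) u₀
      (by rw [LinearMap.sub_apply, sub_eq_zero]; exact e))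
  · let φ : Algebra.adjoin F {a} →ₗ[F] U :=
      { toFun := fun z => (z : Module.End F U) u₀, map_add' := fun z w => rfl, map_smul' := fun c z => rfl }
    rcases hirr (LinearMap.range φ) (by
      rintro _ ⟨z, rfl⟩
      exact ⟨⟨a * z.1, Subalgebra.mul_mem _ (Algebra.subset_adjoin rfl) z.2⟩, rfl⟩) with h | h
    · refine absurd ?_ hu₀
      have : φ 1 ∈ LinearMap.range φ := ⟨1, rfl⟩
      rw [h, Submodule.mem_bot] at this
      exact this
    · exact LinearMap.range_eq_top.1 h x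

theorem odd_card_submodule {W : Type*} [AddCommGroup W] [Module F W] [Finite W] (h2 : (2 : F) ≠ 0) :
    Odd (Nat.card W) := by
  have := Module.Finite.of_finite (R := F) (M := W)
  rw [Module.natCard_eq_pow_finrank (K := F), Nat.card_eq_fintype_card]
  exact (odd_card_of_two_ne_zero h2).pow

/-- A non-empty fibre of a linear form has odd cardinality. -/
theorem odd_card_fibre {W : Type*} [AddCommGroup W] [Module F W] [Finite W] (h2 : (2 : F) ≠ 0)
    (ψ : W →ₗ[F] F) {c : F} {w₀ : W} (hw : ψ w₀ = c) :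
    Nat.card {w : W // ψ w = c} = Nat.card (LinearMap.ker ψ) ∧ Odd (Nat.card {w : W // ψ w = c}) := by
  have e : Nat.card {w : W // ψ w = c} = Nat.card (LinearMap.ker ψ) := Nat.card_congr
    { toFun := fun w => ⟨w.1 - w₀, by rw [LinearMap.mem_ker, map_sub, w.2, hw, sub_self]⟩
      invFun := fun z => ⟨z.1 + w₀, by rw [map_add, LinearMap.mem_ker.1 z.2, zero_add, hw]⟩
      left_inv := fun w => Subtype.ext (sub_add_cancel _ _)
      right_inv := fun z => Subtype.ext (add_sub_cancel_right _ _) }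
  exact ⟨e, e ▸ odd_card_submodule h2⟩

/-- Extending a map on a block by the identity. -/
theorem spn_neg_of_block (hQ : Nd Q) (h2 : (2 : F) ≠ 0) {h : isoG Q} {r : ℕ} (hr : Odd r) (hh : h ^ r = 1)
    {U : Submodule F V} (hU : ∀ x ∈ U, h.1 x ∈ U) (hfix : ∀ x ∈ U, h.1 x = x → x = 0)
    (hnd : ∀ x ∈ U, (∀ y ∈ U, polar Q x y = 0) → x = 0)
    (a : U ≃ₗ[F] U) (haQ : ∀ x, Q (a x : V) = Q (x : V))
    (hcomm : ∀ x : U, (a ⟨h.1 x, hU x x.2⟩ : V) = h.1 (a x)) {N : ℕ} (hN : Even N)
    (hfree : ∀ j : ℕ, ∀ x : U, x ≠ 0 → ((a ^ j) x = x ↔ N ∣ j))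
    (hodd : Odd (Nat.card {x : U // Q (x : V) = 1} / N)) :
    ∃ k : isoG Q, dick hQ k = 1 ∧ spn hQ k = -1 ∧ k * h = h * k := by
  have := Module.Finite.of_finite (R := F) (M := V)
  let U' : Submodule F V := LinearMap.BilinForm.orthogonal (polarBilin Q) U
  have hmem : ∀ y, y ∈ U' ↔ ∀ x ∈ U, polar Q x y = 0 := fun y => by
    simp [U', LinearMap.BilinForm.mem_orthogonal_iff, LinearMap.BilinForm.IsOrtho]
  have hc : IsCompl U U' := by
    have hdis : Disjoint U U' := Submodule.disjoint_def.2 fun x hx hx' =>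
      hnd x hx fun y hy => by rw [polar_comm]; exact (hmem x).1 hx' y hy
    refine ⟨hdis, codisjoint_iff.2 ?_⟩
    refine Submodule.eq_top_of_finrank_eq ?_
    have h1 := Submodule.finrank_sup_add_finrank_inf_eq U U'
    rw [hdis.eq_bot, finrank_bot] at h1
    have hsym : (polarBilin Q).IsRefl := fun x y hxy => by
      show polar Q y x = 0
      rw [polar_comm]; exact hxy
    have h3 := LinearMap.BilinForm.finrank_add_finrank_orthogonal (B := polarBilin Q) hsym U
    have h4 : Module.finrank F V ≤ Module.finrank F U + Module.finrank F U' := by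
      have h5 : Module.finrank F ↥(LinearMap.BilinForm.orthogonal (polarBilin Q) U) = Module.finrank F U' := rfl
      omega
    have h6 := Submodule.finrank_le (U ⊔ U')
    omega
  let P := Submodule.prodEquivOfIsCompl U U' hc
  let L : V ≃ₗ[F] V := P.symm.trans ((a.prodCongr (LinearEquiv.refl F U')).trans P)
  have hL : ∀ (x : U) (y : U'), L ((x : V) + y) = (a x : V) + y := fun x y => by
    show P ((a.prodCongr (LinearEquiv.refl F U')) (P.symm ((x : V) + y))) = _
    rw [show (x : V) + y = P (x, y) from rfl, LinearEquiv.symm_apply_apply]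
    rfl
  have hsplit : ∀ v, ∃ (x : U) (y : U'), v = (x : V) + y := fun v =>
    ⟨(P.symm v).1, (P.symm v).2, (P.apply_symm_apply v).symm⟩
  let k : isoG Q := ⟨L, fun v => by
    obtain ⟨x, y, rfl⟩ := hsplit v
    show Q (L _) = _
    rw [hL, QuadraticMap.map_add ⇑Q, QuadraticMap.map_add ⇑Q (x : V), (hmem y).1 y.2 _ (a x).2,
      (hmem y).1 y.2 _ x.2, haQ]⟩
  have hkU : ∀ x : U, k.1 (x : V) = a x := fun x => by
    have := hL x 0
    rwa [Submodule.coe_zero, add_zero, add_zero] at this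
  have hkU' : ∀ y ∈ U', k.1 y = y := fun y hy => by
    have := hL 0 ⟨y, hy⟩
    simpa only [map_zero, Submodule.coe_zero, zero_add] using this
  have hkj : ∀ (j : ℕ) (x : U), (k ^ j).1 (x : V) = ((a ^ j) x : U) := by
    intro j
    induction j with
    | zero => intro x; rfl
    | succ j ih =>
      intro x
      rw [pow_succ, pow_succ, Subgroup.coe_mul, LinearEquiv.mul_apply, LinearEquiv.mul_apply, hkU, ih]
  have hfree' : ∀ j : ℕ, ∀ x ∈ U, x ≠ 0 → ((k ^ j).1 x = x ↔ N ∣ j) := fun j x hx hx0 => by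
    rw [hkj j ⟨x, hx⟩, ← hfree j ⟨x, hx⟩ fun e => hx0 (congrArg Subtype.val e)]
    exact ⟨fun e => Subtype.ext e, fun e => congrArg Subtype.val e⟩
  have hN1 : N ≠ 1 := fun e => by subst e; simp at hN
  -- the fixed space of `k`
  have hfixk : fixS k = U' := by
    ext v
    obtain ⟨x, y, rfl⟩ := hsplit v
    rw [mem_fixS]
    show k.1 ((x : V) + y) = _ ↔ _
    rw [map_add, hkU' y y.2, add_left_inj, hkU]
    constructor
    · intro e
      have : x = 0 := by
        by_contra hx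
        exact hN1 (Nat.dvd_one.1 ((hfree 1 x hx).1 (by rw [pow_one]; exact Subtype.ext e)))
      rw [this, Submodule.coe_zero, zero_add]
      exact y.2
    · intro e
      have : (x : V) ∈ U' := by have := U'.sub_mem e y.2; rwa [add_sub_cancel_right] at this
      rw [show x = 0 from Subtype.ext (Submodule.disjoint_def.1 hc.disjoint _ x.2 this), map_zero]
  -- the block has even dimension
  let R : QuadraticForm F U := Q.comp U.subtype
  have hR : Nd R := fun x hx => Subtype.ext (hnd x x.2 fun y hy => by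
    have := hx ⟨y, hy⟩
    simpa [R, polar] using this)
  let hL0 : U ≃ₗ[F] U := LinearEquiv.ofInjectiveEndo ((h.1 : V →ₗ[F] V).restrict hU) fun x y e =>
    Subtype.ext (h.1.injective (congrArg Subtype.val e))
  let hU0 : isoG R := ⟨hL0, fun x => iso_Q h (x : V)⟩
  have hpow : ∀ (j : ℕ) (x : U), ((hU0 ^ j).1 x : V) = (h ^ j).1 (x : V) := by
    intro j
    induction j with
    | zero => intro x; rfl
    | succ j ih =>
      intro x
      rw [pow_succ, pow_succ, Subgroup.coe_mul, LinearEquiv.mul_apply, ih]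
      rfl
  have hUeven : Even (Module.finrank F U) := by
    have h1 := finrank_fixS_add_even (g := hU0) hR hr (iso_ext fun x => Subtype.ext (by rw [hpow, hh]; rfl))
    rwa [show fixS hU0 = ⊥ from (Submodule.eq_bot_iff _).2 fun x hx =>
      Subtype.ext (hfix _ x.2 (congrArg Subtype.val (mem_fixS.1 hx))), finrank_bot, add_zero] at h1
  have hd : dick hQ k = 1 := by
    rw [dick_eq, hfixk, ← Submodule.finrank_add_eq_of_isCompl hc, add_assoc, pow_add, hUeven.neg_one_pow,
      one_mul, ← two_mul, pow_mul, neg_one_sq, one_pow]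
  refine ⟨k, hd, spn_of_semiregular hQ h2 hc (fun x hx y hy => (hmem y).1 hy x hx) hkU'
    (fun x hx => by rw [hkU ⟨x, hx⟩]; exact (a _).2) hN hN1 hfree' hodd hd, iso_ext fun v => ?_⟩
  obtain ⟨x, y, rfl⟩ := hsplit v
  rw [Subgroup.coe_mul, Subgroup.coe_mul, LinearEquiv.mul_apply, LinearEquiv.mul_apply, map_add, map_add,
    map_add, map_add, hkU, hkU' y y.2, ← hcomm x, hkU ⟨h.1 x, hU x x.2⟩]
  congr 1
  refine hkU' _ ((hmem _).2 fun z hz => ?_)
  obtain ⟨w, hw⟩ := hL0.surjective ⟨z, hz⟩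
  have hzw : z = h.1 (w : V) := (congrArg Subtype.val hw).symm
  rw [hzw, polar_iso h]
  exact (hmem y).1 y.2 _ w.2

theorem restrict_pow {h : isoG Q} {U : Submodule F V} (hU : ∀ x ∈ U, h.1 x ∈ U) (j : ℕ) (x : U) :
    ((((h.1 : V →ₗ[F] V).restrict hU) ^ j) x : V) = (h ^ j).1 (x : V) :=
  OrthPN.res_pow_apply h U hU j x

/-- A non-degenerate irreducible block. -/
theorem spn_neg_of_irreducible (hQ : Nd Q) (h2 : (2 : F) ≠ 0) {h : isoG Q} {r : ℕ} (hr : Odd r) (hh : h ^ r = 1)
    {U : Submodule F V} (hU : ∀ x ∈ U, h.1 x ∈ U) (hU0 : U ≠ ⊥) (hfix : ∀ x ∈ U, h.1 x = x → x = 0)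
    (hnd : ∀ x ∈ U, (∀ y ∈ U, polar Q x y = 0) → x = 0)
    (hmin : ∀ P ≤ U, (∀ x ∈ P, h.1 x ∈ P) → P = ⊥ ∨ P = U) :
    ∃ k : isoG Q, dick hQ k = 1 ∧ spn hQ k = -1 ∧ k * h = h * k := by
  have := Module.Finite.of_finite (R := F) (M := V)
  set a : Module.End F U := (h.1 : V →ₗ[F] V).restrict hU with ha
  have haU : ∀ x : U, (a x : V) = h.1 (x : V) := fun x => rfl
  have hirr : ∀ P : Submodule F U, (∀ x ∈ P, a x ∈ P) → P = ⊥ ∨ P = ⊤ := by
    intro P hP
    rcases hmin (P.map U.subtype) (Submodule.map_subtype_le U P)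
      (by rintro _ ⟨x, hx, rfl⟩; exact ⟨a x, hP x hx, rfl⟩) with h1 | h1
    · left
      exact Submodule.map_injective_of_injective U.subtype_injective (h1.trans (Submodule.map_bot _).symm)
    · right
      exact Submodule.map_injective_of_injective U.subtype_injective (h1.trans (Submodule.map_subtype_top U).symm)
  obtain ⟨x₀, hx₀U, hx₀⟩ := (Submodule.ne_bot_iff _).1 hU0
  set u₀ : U := ⟨x₀, hx₀U⟩
  have hu₀ : u₀ ≠ 0 := fun e => hx₀ (congrArg Subtype.val e)
  obtain ⟨hker, hbij⟩ := adjoin_irreducible a hirr hu₀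
  set A := Algebra.adjoin F {a} with hA
  letI : CommRing A := Algebra.adjoinCommRingOfComm F (by
    intro x hx y hy
    rw [Set.mem_singleton_iff] at hx hy
    rw [hx, hy])
  haveI : Finite (Module.End F U) := Finite.of_injective _ DFunLike.coe_injective
  haveI : Finite A := Subtype.finite
  haveI : Nontrivial A := ⟨⟨0, 1, fun e => hu₀ (LinearMap.congr_fun (congrArg Subtype.val e) u₀).symm⟩⟩
  haveI : NoZeroDivisors A := ⟨fun {x y} e => by
    by_contra! hne
    refine hu₀ (hker _ y.2 (fun e' => hne.2 (Subtype.ext e')) u₀ (hker _ x.2 (fun e' => hne.1 (Subtype.ext e')) _ ?_))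
    exact LinearMap.congr_fun (congrArg Subtype.val e) u₀⟩
  haveI : IsDomain A := NoZeroDivisors.to_isDomain A
  -- the adjoint
  let β : LinearMap.BilinForm F U :=
    LinearMap.mk₂ F (fun x y => polar Q (x : V) (y : V)) (fun x x' y => by simp [polar_add_left])
      (fun c x y => by simp [polar_smul_left]) (fun x y y' => by simp [polar_add_right])
      (fun c x y => by simp [polar_smul_right])
  have hβ : ∀ x y, β x y = polar Q (x : V) (y : V) := fun x y => rfl
  have hβn : β.Nondegenerate := ⟨fun x hx => Subtype.ext (hnd x x.2 fun y hy => hx ⟨y, hy⟩),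
    fun y hy => Subtype.ext (hnd y y.2 fun x hx => by rw [polar_comm]; exact hy ⟨x, hx⟩)⟩
  have hs : ∀ x y, β x y = 1 * β y x := fun x y => by rw [one_mul]; exact polar_comm _ _ _
  let adj := SemisimpleConj.adj β hβn
  have hr0 : 0 < r := hr.pos
  have har : a * a ^ (r - 1) = 1 := by
    rw [← pow_succ', Nat.sub_add_cancel hr0]
    exact LinearMap.ext fun x => Subtype.ext (by rw [ha, restrict_pow hU, hh]; rfl)
  have hadja : adj a = a ^ (r - 1) := SemisimpleConj.adj_eq_inv β hβn a (a ^ (r - 1))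
    (fun x y => by rw [hβ, hβ, haU, haU, polar_iso h]) har
  have hadjA : ∀ x ∈ A, adj x ∈ A := by
    intro x hx
    induction hx using Algebra.adjoin_induction with
    | mem x hx =>
      obtain rfl : x = a := hx
      rw [hadja]; exact A.pow_mem (Algebra.subset_adjoin rfl) _
    | algebraMap c =>
      rw [Algebra.algebraMap_eq_smul_one]
      show SemisimpleConj.adj β hβn _ ∈ _
      rw [SemisimpleConj.adj_smul, SemisimpleConj.adj_one]
      exact A.smul_mem A.one_mem _
    | add x y _ _ hx hy =>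
      show SemisimpleConj.adj β hβn _ ∈ _
      rw [SemisimpleConj.adj_add]; exact A.add_mem hx hy
    | mul x y _ _ hx hy =>
      show SemisimpleConj.adj β hβn _ ∈ _
      rw [SemisimpleConj.adj_mul]; exact A.mul_mem hy hx
  let σ : A ≃+* A :=
    { toFun := fun x => ⟨adj x, hadjA x x.2⟩
      invFun := fun x => ⟨adj x, hadjA x x.2⟩
      left_inv := fun x => Subtype.ext (SemisimpleConj.adj_adj β hβn hs _)
      right_inv := fun x => Subtype.ext (SemisimpleConj.adj_adj β hβn hs _)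
      map_mul' := fun x y => Subtype.ext (by
        show adj ((x : Module.End F U) * y) = adj x * adj y
        refine (SemisimpleConj.adj_mul β hβn _ _).trans ?_
        exact congrArg Subtype.val (mul_comm (⟨_, hadjA y y.2⟩ : A) ⟨_, hadjA x x.2⟩))
      map_add' := fun x y => Subtype.ext (SemisimpleConj.adj_add β hβn _ _) }
  have hσσ : ∀ x, σ (σ x) = x := fun x => σ.left_inv x
  -- norms
  let Nm : Aˣ →* Aˣ :=
    { toFun := fun z => Units.map σ.toRingHom.toMonoidHom z * z
      map_one' := by simp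
      map_mul' := fun z w => by rw [map_mul, mul_mul_mul_comm] }
  have hNmv : ∀ z : Aˣ, ((Nm z : Aˣ) : A) = σ z * z := fun z => rfl
  let Γ := Nm.ker
  have hΓmem : ∀ z : Aˣ, z ∈ Γ ↔ σ (z : A) * z = 1 := fun z => by
    rw [MonoidHom.mem_ker, Units.ext_iff, hNmv, Units.val_one]
  have hΓiso : ∀ (z : Γ) (x y : U), β ((z.1 : A).1 x) ((z.1 : A).1 y) = β x y := by
    intro z x y
    rw [← SemisimpleConj.adj_apply β hβn, ← Module.End.mul_apply,
      show SemisimpleConj.adj β hβn (z.1 : A).1 * (z.1 : A).1 = 1 from congrArg Subtype.val ((hΓmem z.1).1 z.2),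
      Module.End.one_apply]
  obtain ⟨γ, hγ⟩ := IsCyclic.exists_ofOrder_eq_natCard (α := Γ)
  set N := Nat.card Γ with hNdef
  have hN : Even N := by
    have hm : (-1 : Aˣ) ∈ Γ := (hΓmem _).2 (by simp)
    have hne : (⟨-1, hm⟩ : Γ) ≠ 1 := fun e => by
      have e1 : ((-1 : Aˣ) : A) = 1 := congrArg (fun z : Γ => (z.1 : A)) e
      have e2 : -u₀ = u₀ := by
        have := LinearMap.congr_fun (congrArg Subtype.val e1) u₀
        simpa using this
      refine hu₀ ((smul_eq_zero.1 (?_ : (2 : F) • u₀ = 0)).resolve_left h2)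
      rw [two_smul]
      nth_rewrite 1 [← e2]
      exact neg_add_cancel u₀
    have ho : orderOf (⟨-1, hm⟩ : Γ) = 2 := orderOf_eq_prime (Subtype.ext (by simp)) hne
    exact even_iff_two_dvd.2 (ho ▸ orderOf_dvd_natCard _)
  let z₀ : A := (γ.1 : A)
  let L : U ≃ₗ[F] U := LinearEquiv.ofLinear z₀.1 ((γ.1⁻¹ : Aˣ) : A).1
    (congrArg Subtype.val γ.1.mul_inv) (congrArg Subtype.val γ.1.inv_mul)
  have hLpow : ∀ (j : ℕ) (x : U), (L ^ j) x = ((γ.1 ^ j : Aˣ) : A).1 x := by
    intro j
    induction j with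
    | zero => intro x; rfl
    | succ j ih => intro x; rw [pow_succ, pow_succ, LinearEquiv.mul_apply, ih]; rfl
  refine spn_neg_of_block hQ h2 hr hh hU hfix hnd L (fun x => ?_) (fun x => ?_) hN (fun j x hx => ?_) ?_
  · have h1 := hΓiso γ x x
    rw [hβ, hβ, polar_self, polar_self, two_nsmul, two_nsmul, ← two_mul, ← two_mul] at h1
    exact mul_left_cancel₀ h2 h1
  · have := LinearMap.congr_fun (congrArg Subtype.val (mul_comm z₀ ⟨a, Algebra.subset_adjoin rfl⟩)) x
    exact congrArg Subtype.val this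
  · rw [hLpow]
    constructor
    · intro e
      have h1 : ((γ.1 ^ j : Aˣ) : A) = 1 := by
        by_contra hne
        refine hx (hker (((γ.1 ^ j : Aˣ) : A).1 - 1) (A.sub_mem (γ.1 ^ j : Aˣ).1.2 A.one_mem)
          (sub_ne_zero.2 fun e' => hne (Subtype.ext e')) x ?_)
        rw [LinearMap.sub_apply, Module.End.one_apply, e, sub_self]
      rw [← hγ]
      refine orderOf_dvd_of_pow_eq_one (Subtype.ext (Units.ext ?_))
      rw [SubgroupClass.coe_pow]
      exact h1
    · rintro ⟨t, rfl⟩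
      rw [show (γ.1 ^ (N * t) : Aˣ) = 1 from congrArg Subtype.val
        (show γ ^ (N * t) = 1 by rw [pow_mul, ← hγ, pow_orderOf_eq_one, one_pow])]
      rfl
  -- counting the vectors of norm one
  · let e : A ≃ U := Equiv.ofBijective _ hbij
    let ψ : A →ₗ[F] F := (2 : F)⁻¹ •
      ((β u₀).comp ({ toFun := fun z : A => (z : Module.End F U) u₀, map_add' := fun _ _ => rfl,
                      map_smul' := fun _ _ => rfl } : A →ₗ[F] U))
    have hQψ : ∀ z : A, Q ((e z : U) : V) = ψ (σ z * z) := by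
      intro z
      show Q (((z : Module.End F U) u₀ : U) : V) = (2 : F)⁻¹ * β u₀ ((σ z * z : A).1 u₀)
      rw [show β u₀ ((σ z * z : A).1 u₀) = β ((z : Module.End F U) u₀) ((z : Module.End F U) u₀) by
        rw [hs, one_mul]
        exact SemisimpleConj.adj_apply β hβn _ _ _, hβ, polar_self, two_nsmul, ← two_mul, inv_mul_cancel_left₀ h2]
    let A₀ : Submodule F A :=
      { carrier := {z | σ z = z}
        add_mem' := fun {x y} hx hy => show σ (x + y) = x + y by rw [map_add, hx, hy]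
        zero_mem' := map_zero σ
        smul_mem' := fun c x hx => Subtype.ext (by
          show adj (c • (x : Module.End F U)) = c • (x : Module.End F U)
          exact (SemisimpleConj.adj_smul β hβn c _).trans (congrArg (c • ·) (congrArg Subtype.val hx))) }
    have hunit : ∀ z : A, z ≠ 0 → IsUnit z := by
      intro z hz
      obtain ⟨w, hw⟩ := Finite.surjective_of_injective (fun x y e => mul_left_cancel₀ hz e :
        Function.Injective (fun w => z * w)) 1
      exact IsUnit.of_mul_eq_one w hw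
    -- the form does not vanish on the block
    obtain ⟨y₁, hy₁⟩ : ∃ x : U, Q (x : V) ≠ 0 := by
      by_contra! h0
      refine hu₀ (Subtype.ext (hnd x₀ hx₀U fun y hy => ?_))
      have h1 := h0 (u₀ + ⟨y, hy⟩)
      rw [Submodule.coe_add, QuadraticMap.map_add ⇑Q, h0 u₀, h0 ⟨y, hy⟩, zero_add, zero_add] at h1
      exact h1
    obtain ⟨z₁, rfl⟩ := e.surjective y₁
    rw [hQψ] at hy₁
    have hfix1 : σ (σ z₁ * z₁) = σ z₁ * z₁ := by rw [map_mul, hσσ, mul_comm]
    obtain ⟨-, hTodd⟩ := odd_card_fibre h2 (ψ.comp A₀.subtype) (c := 1)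
      (w₀ := (ψ (σ z₁ * z₁))⁻¹ • (⟨_, hfix1⟩ : A₀)) (by
        rw [map_smul, smul_eq_mul]; exact inv_mul_cancel₀ hy₁)
    -- the norm is onto the fixed units
    have hβu : IsUnit ((⟨a, Algebra.subset_adjoin rfl⟩ : A) - σ ⟨a, Algebra.subset_adjoin rfl⟩) := by
      refine hunit _ fun e0 => hu₀ ?_
      have e1 : a = a ^ (r - 1) := by rw [← hadja]; exact congrArg Subtype.val (sub_eq_zero.1 e0)
      have e2 : ∀ x : U, h.1 (h.1 (x : V)) = x := fun x => by
        have := LinearMap.congr_fun (har) x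
        rw [← e1, Module.End.mul_apply] at this
        exact congrArg Subtype.val this
      obtain ⟨k, hk⟩ := hr
      have e3 : ∀ j : ℕ, (h ^ (2 * j)).1 (x₀ : V) = x₀ := by
        intro j
        induction j with
        | zero => rfl
        | succ j ih =>
          rw [show 2 * (j + 1) = 2 + 2 * j by ring, pow_add, Subgroup.coe_mul, LinearEquiv.mul_apply, ih, pow_two,
            Subgroup.coe_mul, LinearEquiv.mul_apply]
          exact e2 u₀
      refine Subtype.ext (hfix x₀ hx₀U ?_)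
      calc h.1 x₀ = (h ^ (2 * k + 1)).1 x₀ := by
            rw [pow_succ', Subgroup.coe_mul, LinearEquiv.mul_apply, e3]
        _ = x₀ := by rw [← hk, hh]; rfl
    let T := {t : A₀ // ψ (t : A) = 1}
    have hsurj : ∀ t : T, ∃ c : Aˣ, σ (c : A) * c = (t.1 : A) := by
      intro t
      have ht0 : (t.1 : A) ≠ 0 := fun e0 => by
        have := t.2; rw [e0, map_zero] at this; exact zero_ne_one this
      obtain ⟨c, hcu, hc⟩ := InvolNorm.exists_mul_eq σ hσσ _ hβu (t.1 : A) t.1.2 (hunit _ ht0)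
      exact ⟨hcu.unit, hc⟩
    choose c hc using hsurj
    have hcount : Nat.card {x : U // Q (x : V) = 1} = N * Nat.card T := by
      rw [hNdef, mul_comm, ← Nat.card_prod]
      have hval : ∀ (t : T) (g : Γ), σ ((c t * g.1 : Aˣ) : A) * ((c t * g.1 : Aˣ) : A) = (t.1 : A) := fun t g => by
        rw [Units.val_mul, map_mul, mul_mul_mul_comm, (hΓmem g.1).1 g.2, mul_one, hc]
      refine (Nat.card_eq_of_bijective (fun tg : T × Γ =>
        (⟨e ((c tg.1 * tg.2.1 : Aˣ) : A), by rw [hQψ, hval, tg.1.2]⟩ : {x : U // Q (x : V) = 1})) ⟨?_, ?_⟩).symm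
      · rintro ⟨t, g⟩ ⟨t', g'⟩ he
        have h1 : (c t * g.1 : Aˣ) = c t' * g'.1 := Units.ext (e.injective (congrArg Subtype.val he))
        obtain rfl : t = t' := Subtype.ext (Subtype.ext (by rw [← hval t g, ← hval t' g', h1]))
        exact Prod.ext rfl (Subtype.ext (mul_left_cancel h1))
      · rintro ⟨x, hx⟩
        obtain ⟨z, rfl⟩ := e.surjective x
        rw [hQψ] at hx
        have hz0 : z ≠ 0 := fun e0 => by rw [e0, mul_zero, map_zero] at hx; exact zero_ne_one hx
        obtain ⟨u, rfl⟩ := hunit z hz0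
        have hfix2 : σ (σ (u : A) * u) = σ (u : A) * u := by rw [map_mul, hσσ, mul_comm]
        let t : T := ⟨⟨σ (u : A) * u, hfix2⟩, hx⟩
        have hg : (c t)⁻¹ * u ∈ Γ := by
          rw [MonoidHom.mem_ker, map_mul, map_inv, inv_mul_eq_one]
          exact Units.ext ((hc t).trans (hNmv u).symm)
        refine ⟨(t, ⟨_, hg⟩), Subtype.ext ?_⟩
        show e ((c t * ((c t)⁻¹ * u) : Aˣ) : A) = e (u : A)
        rw [mul_inv_cancel_left]
    rw [hcount, Nat.mul_div_cancel_left _ Nat.card_pos]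
    exact hTodd

/-- A hyperbolic block made of two totally singular subspaces. -/
theorem spn_neg_of_pair (hQ : Nd Q) (h2 : (2 : F) ≠ 0) {h : isoG Q} {r : ℕ} (hr : Odd r) (hh : h ^ r = 1)
    {U₀ U₁ : Submodule F V} (hU₀ : ∀ x ∈ U₀, h.1 x ∈ U₀) (hU₁ : ∀ x ∈ U₁, h.1 x ∈ U₁) (hne : U₀ ≠ ⊥)
    (hs₀ : ∀ x ∈ U₀, Q x = 0) (hs₁ : ∀ x ∈ U₁, Q x = 0)
    (hp₀ : ∀ x ∈ U₀, (∀ y ∈ U₁, polar Q x y = 0) → x = 0)
    (hp₁ : ∀ y ∈ U₁, (∀ x ∈ U₀, polar Q x y = 0) → y = 0)
    (hfix₀ : ∀ x ∈ U₀, h.1 x = x → x = 0) (hfix₁ : ∀ x ∈ U₁, h.1 x = x → x = 0)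
    (hmin : ∀ P ≤ U₀, (∀ x ∈ P, h.1 x ∈ P) → P = ⊥ ∨ P = U₀) :
    ∃ k : isoG Q, dick hQ k = 1 ∧ spn hQ k = -1 ∧ k * h = h * k := by
  have := Module.Finite.of_finite (R := F) (M := V)
  have hTS : ∀ {W : Submodule F V}, (∀ x ∈ W, Q x = 0) → ∀ x ∈ W, ∀ y ∈ W, polar Q x y = 0 := by
    intro W hW x hx y hy
    rw [polar, hW _ (W.add_mem hx hy), hW x hx, hW y hy, sub_zero, sub_zero]
  set a : Module.End F U₀ := (h.1 : V →ₗ[F] V).restrict hU₀ with ha
  have haU : ∀ x : U₀, (a x : V) = h.1 (x : V) := fun x => rfl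
  have hirr : ∀ P : Submodule F U₀, (∀ x ∈ P, a x ∈ P) → P = ⊥ ∨ P = ⊤ := by
    intro P hP
    rcases hmin (P.map U₀.subtype) (Submodule.map_subtype_le U₀ P)
      (by rintro _ ⟨x, hx, rfl⟩; exact ⟨a x, hP x hx, rfl⟩) with h1 | h1
    · left
      exact Submodule.map_injective_of_injective U₀.subtype_injective (h1.trans (Submodule.map_bot _).symm)
    · right
      exact Submodule.map_injective_of_injective U₀.subtype_injective (h1.trans (Submodule.map_subtype_top U₀).symm)
  obtain ⟨x₀, hx₀U, hx₀⟩ := (Submodule.ne_bot_iff _).1 hne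
  set u₀ : U₀ := ⟨x₀, hx₀U⟩
  have hu₀ : u₀ ≠ 0 := fun e => hx₀ (congrArg Subtype.val e)
  obtain ⟨hker, hbij⟩ := adjoin_irreducible a hirr hu₀
  set A := Algebra.adjoin F {a} with hA
  letI : CommRing A := Algebra.adjoinCommRingOfComm F (by
    intro x hx y hy
    rw [Set.mem_singleton_iff] at hx hy
    rw [hx, hy])
  haveI : Finite (Module.End F U₀) := Finite.of_injective _ DFunLike.coe_injective
  haveI : Finite A := Subtype.finite
  haveI : Nontrivial A := ⟨⟨0, 1, fun e => hu₀ (LinearMap.congr_fun (congrArg Subtype.val e) u₀).symm⟩⟩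
  haveI : NoZeroDivisors A := ⟨fun {x y} e => by
    by_contra! hne
    refine hu₀ (hker _ y.2 (fun e' => hne.2 (Subtype.ext e')) u₀ (hker _ x.2 (fun e' => hne.1 (Subtype.ext e')) _ ?_))
    exact LinearMap.congr_fun (congrArg Subtype.val e) u₀⟩
  haveI : IsDomain A := NoZeroDivisors.to_isDomain A
  obtain ⟨γ, hγ⟩ := IsCyclic.exists_ofOrder_eq_natCard (α := Aˣ)
  set N := Nat.card Aˣ with hNdef
  -- nonzero vectors of the singular space
  let e : A ≃ U₀ := Equiv.ofBijective _ hbij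
  have hN₀ : N = Nat.card {x : U₀ // x ≠ 0} := by
    rw [hNdef]
    refine Nat.card_eq_of_bijective (fun z : Aˣ => (⟨e (z : A), fun e0 =>
      Units.ne_zero z (e.injective (e0.trans (show (0 : U₀) = e 0 from rfl)))⟩ : {x : U₀ // x ≠ 0})) ⟨fun z w hzw =>
        Units.ext (e.injective (congrArg Subtype.val hzw)), ?_⟩
    rintro ⟨x, hx⟩
    obtain ⟨z, rfl⟩ := e.surjective x
    have hz : z ≠ 0 := fun e0 => hx (by rw [e0]; rfl)
    obtain ⟨w, hw⟩ := Finite.surjective_of_injective (fun x y e => mul_left_cancel₀ hz e :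
      Function.Injective (fun w => z * w)) 1
    exact ⟨(IsUnit.of_mul_eq_one w hw).unit, rfl⟩
  have hN : Even N := by
    have hne1 : (-1 : Aˣ) ≠ 1 := fun e1 => by
      have e2 : -u₀ = u₀ := by
        have := LinearMap.congr_fun (congrArg Subtype.val (congrArg Units.val e1)) u₀
        simpa using this
      refine hu₀ ((smul_eq_zero.1 (?_ : (2 : F) • u₀ = 0)).resolve_left h2)
      rw [two_smul]
      nth_rewrite 1 [← e2]
      exact neg_add_cancel u₀
    exact even_iff_two_dvd.2 (orderOf_eq_prime neg_one_sq hne1 ▸ orderOf_dvd_natCard (-1 : Aˣ))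
  -- the pairing
  let pr : U₁ →ₗ[F] Module.Dual F U₀ :=
    LinearMap.mk₂ F (fun (y : U₁) (x : U₀) => polar Q (x : V) (y : V)) (fun y y' x => by simp [polar_add_right])
      (fun c y x => by simp [polar_smul_right]) (fun y x x' => by simp [polar_add_left])
      (fun c y x => by simp [polar_smul_left])
  have hpr : ∀ (y : U₁) (x : U₀), pr y x = polar Q (x : V) (y : V) := fun y x => rfl
  have hpinj : Function.Injective pr := (injective_iff_map_eq_zero pr).2 fun y hy =>
    Subtype.ext (hp₁ y y.2 fun x hx => LinearMap.congr_fun hy ⟨x, hx⟩)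
  have hprinj' : Function.Injective pr.flip := (injective_iff_map_eq_zero pr.flip).2 fun x hx =>
    Subtype.ext (hp₀ x x.2 fun y hy => LinearMap.congr_fun hx ⟨y, hy⟩)
  have hfr : Module.finrank F U₁ = Module.finrank F (Module.Dual F U₀) := by
    have h1 := LinearMap.finrank_le_finrank_of_injective hpinj
    have h3 := LinearMap.finrank_le_finrank_of_injective hprinj'
    rw [Subspace.dual_finrank_eq] at h1 h3 ⊢
    omega
  let P : U₁ ≃ₗ[F] Module.Dual F U₀ := LinearEquiv.ofBijective pr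
    ⟨hpinj, (LinearMap.injective_iff_surjective_of_finrank_eq_finrank hfr).1 hpinj⟩
  let L₀ : U₀ ≃ₗ[F] U₀ := LinearEquiv.ofLinear (γ : A).1 ((γ⁻¹ : Aˣ) : A).1
    (congrArg Subtype.val γ.mul_inv) (congrArg Subtype.val γ.inv_mul)
  let L₁ : U₁ ≃ₗ[F] U₁ := P.trans (L₀.symm.dualMap.trans P.symm)
  have hL : ∀ (x : U₀) (y : U₁), polar Q (L₀ x : V) (L₁ y : V) = polar Q (x : V) (y : V) := by
    intro x y
    have : pr (L₁ y) = L₀.symm.dualMap (P y) := P.apply_symm_apply _
    rw [← hpr, ← hpr, this]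
    show pr y (L₀.symm (L₀ x)) = _
    rw [LinearEquiv.symm_apply_apply]
  have hL₀h : ∀ x : U₀, (L₀ ⟨h.1 x, hU₀ x x.2⟩ : V) = h.1 (L₀ x) := fun x =>
    congrArg Subtype.val (LinearMap.congr_fun (congrArg Subtype.val (mul_comm (γ : A) ⟨a, Algebra.subset_adjoin rfl⟩)) x)
  have hL₁h : ∀ y : U₁, (L₁ ⟨h.1 y, hU₁ y y.2⟩ : V) = h.1 (L₁ y) := by
    intro y
    refine sub_eq_zero.1 (hp₁ _ (U₁.sub_mem (L₁ _).2 (hU₁ _ (L₁ y).2)) fun x hx => ?_)
    obtain ⟨x', hx'⟩ := L₀.surjective ⟨x, hx⟩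
    obtain ⟨x'', hx''⟩ := (LinearMap.injective_iff_surjective (f := a)).1
      (fun p q e => Subtype.ext (h.1.injective (congrArg Subtype.val e))) x'
    have hxa : x = h.1 (L₀ x'' : V) := by rw [← hL₀h, show (⟨h.1 x'', _⟩ : U₀) = x' from hx'', hx']
    rw [polar_sub_right, sub_eq_zero]
    conv_rhs => rw [hxa, polar_iso h, hL]
    rw [show x = ((L₀ x') : V) by rw [hx'], hL, ← hx'']
    exact polar_iso h
  -- the block
  let c : U₀ × U₁ →ₗ[F] V := U₀.subtype.coprod U₁.subtype
  have hcinj : Function.Injective c := (injective_iff_map_eq_zero c).2 fun z hz => by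
    have hz' : (z.1 : V) = -(z.2 : V) := eq_neg_of_add_eq_zero_left hz
    have h1 : (z.1 : V) = 0 := hp₀ _ z.1.2 fun y hy => by
      rw [hz', polar_neg_left, hTS hs₁ _ z.2.2 y hy, neg_zero]
    rw [h1, eq_comm, neg_eq_zero] at hz'
    exact Prod.ext (Subtype.ext h1) (Subtype.ext hz')
  let U := LinearMap.range c
  let J : (U₀ × U₁) ≃ₗ[F] U := LinearEquiv.ofInjective c hcinj
  have hJ : ∀ x y, (J (x, y) : V) = (x : V) + y := fun x y => rfl
  have hQJ : ∀ (x : U₀) (y : U₁), Q (J (x, y) : V) = polar Q (x : V) (y : V) := fun x y => by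
    rw [hJ, QuadraticMap.map_add ⇑Q, hs₀ x x.2, hs₁ y y.2, zero_add, zero_add]
  let L : U ≃ₗ[F] U := J.symm.trans ((L₀.prodCongr L₁).trans J)
  have hLJ : ∀ z, L (J z) = J (L₀ z.1, L₁ z.2) := fun z => by
    show J ((L₀.prodCongr L₁) (J.symm (J z))) = _
    rw [LinearEquiv.symm_apply_apply]; rfl
  have hUinv : ∀ v ∈ U, h.1 v ∈ U := by
    rintro _ ⟨⟨x, y⟩, rfl⟩
    exact ⟨(⟨_, hU₀ x x.2⟩, ⟨_, hU₁ y y.2⟩), (map_add h.1 (x : V) (y : V)).symm⟩
  have hJh : ∀ (x : U₀) (y : U₁), h.1 (J (x, y) : V) = (J (⟨_, hU₀ x x.2⟩, ⟨_, hU₁ y y.2⟩) : V) := fun x y =>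
    map_add h.1 (x : V) (y : V)
  refine spn_neg_of_block (U := U) hQ h2 hr hh hUinv (fun v hv hvf => ?_) (fun v hv hv0 => ?_) L (fun z => ?_)
    (fun z => ?_) hN (fun j z hz => ?_) ?_
  · obtain ⟨⟨x, y⟩, rfl⟩ := J.surjective ⟨v, hv⟩ |>.imp fun z hz => congrArg Subtype.val hz
    rw [hJh] at hvf
    have h1 := J.injective (Subtype.ext hvf)
    have hx := hfix₀ x x.2 (congrArg (fun p : U₀ × U₁ => (p.1 : V)) h1)
    have hy := hfix₁ y y.2 (congrArg (fun p : U₀ × U₁ => (p.2 : V)) h1)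
    rw [hJ, hx, hy, add_zero]
  · obtain ⟨⟨x, y⟩, rfl⟩ := J.surjective ⟨v, hv⟩ |>.imp fun z hz => congrArg Subtype.val hz
    have hx : (x : V) = 0 := hp₀ x x.2 fun w hw => by
      have := hv0 _ (J (0, ⟨w, hw⟩)).2
      rwa [hJ, hJ, Submodule.coe_zero, zero_add, polar_add_left, hTS hs₁ y y.2 w hw, add_zero] at this
    have hy : (y : V) = 0 := hp₁ y y.2 fun w hw => by
      have := hv0 _ (J (⟨w, hw⟩, 0)).2
      rw [hJ, hJ, Submodule.coe_zero, add_zero, polar_add_left, hTS hs₀ x x.2 w hw, zero_add] at this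
      rwa [polar_comm]
    rw [hJ, hx, hy, add_zero]
  · obtain ⟨⟨x, y⟩, rfl⟩ := J.surjective z
    rw [hLJ, hQJ, hQJ]
    exact hL x y
  · obtain ⟨⟨x, y⟩, rfl⟩ := J.surjective z
    rw [show (⟨h.1 (J (x, y) : V), hUinv _ (J (x, y)).2⟩ : U) = J (⟨_, hU₀ x x.2⟩, ⟨_, hU₁ y y.2⟩) from
      Subtype.ext (hJh x y), hLJ, hLJ, hJh]
    show ((J (L₀ ⟨h.1 x, hU₀ x x.2⟩, L₁ ⟨h.1 y, hU₁ y y.2⟩)) : V) = _
    rw [hJ, hJ, hL₀h, hL₁h]
  · obtain ⟨⟨x, y⟩, rfl⟩ := J.surjective z
    have hLpow : ∀ j : ℕ, (L ^ j) (J (x, y)) = J ((L₀ ^ j) x, (L₁ ^ j) y) := by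
      intro j
      induction j with
      | zero => rfl
      | succ j ih =>
        rw [pow_succ', pow_succ', pow_succ', LinearEquiv.mul_apply, LinearEquiv.mul_apply, LinearEquiv.mul_apply, ih, hLJ]
    have hL₀pow : ∀ (j : ℕ) (x : U₀), (L₀ ^ j) x = ((γ ^ j : Aˣ) : A).1 x := by
      intro j
      induction j with
      | zero => intro x; rfl
      | succ j ih => intro x; rw [pow_succ, pow_succ, LinearEquiv.mul_apply, ih]; rfl
    have hLLpow : ∀ (j : ℕ) (x : U₀) (y : U₁),
        polar Q ((L₀ ^ j) x : V) ((L₁ ^ j) y : V) = polar Q (x : V) (y : V) := by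
      intro j
      induction j with
      | zero => intro x y; rfl
      | succ j ih => intro x y; rw [pow_succ, pow_succ, LinearEquiv.mul_apply, LinearEquiv.mul_apply, ih, hL]
    have h0 : ∀ (j : ℕ) (x : U₀), x ≠ 0 → ((L₀ ^ j) x = x → N ∣ j) := by
      intro j x hx e1
      rw [← hγ]
      refine orderOf_dvd_of_pow_eq_one (Units.ext ?_)
      by_contra hne'
      refine hx (hker (((γ ^ j : Aˣ) : A).1 - 1) (A.sub_mem (γ ^ j : Aˣ).1.2 A.one_mem)
        (sub_ne_zero.2 fun e' => hne' (Subtype.ext e')) x ?_)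
      rw [LinearMap.sub_apply, Module.End.one_apply, ← hL₀pow, e1, sub_self]
    rw [hLpow, J.injective.eq_iff, Prod.ext_iff]
    constructor
    · rintro ⟨ex, ey⟩
      simp only at ex ey
      by_cases hx : x = 0
      · have hy : (y : V) ≠ 0 := fun e0 => hz (by
          rw [hx, show y = 0 from Subtype.ext e0, show ((0 : U₀), (0 : U₁)) = 0 from rfl, map_zero])
        obtain ⟨x', hx'⟩ : ∃ x' : U₀, polar Q (x' : V) (y : V) ≠ 0 := by
          by_contra! h1
          exact hy (hp₁ y y.2 fun w hw => h1 ⟨w, hw⟩)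
        -- the transpose fixes a non-zero functional
        by_contra hnd
        have hbijj : Function.Surjective (fun w : U₀ => (L₀ ^ j) w - w) := by
          refine (LinearMap.injective_iff_surjective (f := ((L₀ ^ j).toLinearMap - LinearMap.id))).1
            ((injective_iff_map_eq_zero _).2 fun w hw => ?_)
          by_contra hw0
          exact hnd (h0 j w hw0 (sub_eq_zero.1 hw))
        obtain ⟨w, hw⟩ := hbijj x'
        refine hx' ?_
        rw [show x' = (L₀ ^ j) w - w from hw.symm, Submodule.coe_sub, polar_sub_left, sub_eq_zero]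
        conv_lhs => rw [← ey]
        exact hLLpow j w y
      · exact h0 j x hx ex
    · rintro ⟨t, rfl⟩
      have e0 : (γ ^ (N * t) : Aˣ) = 1 := by rw [pow_mul, ← hγ, pow_orderOf_eq_one, one_pow]
      have ex : ∀ x : U₀, (L₀ ^ (N * t)) x = x := fun x => by rw [hL₀pow, e0]; rfl
      refine ⟨ex x, Subtype.ext (sub_eq_zero.1 (hp₁ _ (U₁.sub_mem ((L₁ ^ (N * t)) y).2 y.2) fun w hw => ?_))⟩
      rw [polar_sub_right, sub_eq_zero]
      conv_lhs => rw [show w = (((L₀ ^ (N * t)) ⟨w, hw⟩ : U₀) : V) by rw [ex]]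
      rw [hLLpow]
  · let E : {z : U // Q (z : V) = 1} ≃ Σ x : {x : U₀ // x ≠ 0}, {y : U₁ // pr y x.1 = 1} :=
      { toFun := fun z => ⟨⟨(J.symm z.1).1, fun e0 => by
            have h1 := z.2
            rw [← J.apply_symm_apply z.1] at h1
            rw [hQJ, e0, Submodule.coe_zero, polar_zero_left] at h1
            exact zero_ne_one h1⟩, (J.symm z.1).2, by
            have h1 := z.2
            rw [← J.apply_symm_apply z.1, hQJ] at h1
            exact h1⟩
        invFun := fun w => ⟨J (w.1.1, w.2.1), by rw [hQJ]; exact w.2.2⟩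
        left_inv := fun z => Subtype.ext (J.apply_symm_apply z.1)
        right_inv := by
          rintro ⟨⟨x, hx⟩, y, hy⟩
          refine Sigma.subtype_ext (Subtype.ext ?_) ?_ <;> simp }
    have hfib : ∀ x : {x : U₀ // x ≠ 0}, Nat.card {y : U₁ // pr y x.1 = 1} =
        Nat.card F ^ (Module.finrank F U₁ - 1) := by
      intro x
      obtain ⟨y₀, hy₀⟩ : ∃ y : U₁, pr y x.1 ≠ 0 := by
        by_contra! h1
        exact x.2 (Subtype.ext (hp₀ _ x.1.2 fun w hw => h1 ⟨w, hw⟩))
      let ψ : U₁ →ₗ[F] F := pr.flip x.1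
      have hψ : ψ ≠ 0 := fun e0 => hy₀ (LinearMap.congr_fun e0 y₀)
      rw [show Nat.card {y : U₁ // pr y x.1 = 1} = Nat.card (LinearMap.ker ψ) from
        (odd_card_fibre h2 ψ (c := 1) (w₀ := (pr y₀ x.1)⁻¹ • y₀) (by
          show ψ ((pr y₀ x.1)⁻¹ • y₀) = 1
          rw [map_smul, smul_eq_mul]; exact inv_mul_cancel₀ hy₀)).1, Module.natCard_eq_pow_finrank (K := F)]
      congr 1
      have h1 := ψ.finrank_range_add_finrank_ker
      rw [LinearMap.range_eq_top.2 (LinearMap.surjective hψ), finrank_top, Module.finrank_self] at h1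
      omega
    have hcard : Nat.card {z : U // Q (z : V) = 1} = N * Nat.card F ^ (Module.finrank F U₁ - 1) := by
      have : Fintype {x : U₀ // x ≠ 0} := Fintype.ofFinite _
      rw [Nat.card_congr E, Nat.card_sigma, Finset.sum_congr rfl (fun x _ => hfib x), Finset.sum_const,
        Finset.card_univ, ← Nat.card_eq_fintype_card, smul_eq_mul, hN₀]
    rw [hcard, Nat.mul_div_cancel_left _ Nat.card_pos, Nat.card_eq_fintype_card]
    exact (odd_card_of_two_ne_zero h2).pow

/-- A proper isometry of non-trivial spinor norm commuting with an isometry of odd order. -/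
theorem exists_spn_neg (hQ : Nd Q) (h2 : (2 : F) ≠ 0) (p : ℕ) [Fact p.Prime] [CharP F p] {h : isoG Q} {r : ℕ}
    (hr : Odd r) (hrp : r.Coprime p) (hh : h ^ r = 1) (hh1 : h ≠ 1) :
    ∃ k : isoG Q, dick hQ k = 1 ∧ spn hQ k = -1 ∧ k * h = h * k := by
  have := Module.Finite.of_finite (R := F) (M := V)
  set a : Module.End F V := (h.1 : V →ₗ[F] V) with ha
  have hapow : ∀ (j : ℕ) (x : V), (a ^ j) x = (h ^ j).1 x := by
    intro j
    induction j with
    | zero => intro x; rfl
    | succ j ih => intro x; rw [pow_succ, pow_succ, Module.End.mul_apply, ih]; rfl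
  have hss : a.IsSemisimple := GLn.SemisimpleCharpoly.isSemisimple_of_pow p a hrp
    (LinearMap.ext fun x => by rw [hapow, hh]; rfl)
  have hr0 : (r : F) ≠ 0 := by
    rw [Ne, CharP.cast_eq_zero_iff F p]
    exact fun hd => (Fact.out : p.Prime).not_dvd_one (hrp.gcd_eq_one ▸ Nat.dvd_gcd hd dvd_rfl)
  set W := LinearMap.range (a - 1) with hW
  have hWfix : ∀ z ∈ W, h.1 z = z → z = 0 := by
    rintro _ ⟨x, rfl⟩ hz
    set z := (a - 1) x with hzdef
    have hzj : ∀ j : ℕ, (a ^ j) z = z := by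
      intro j
      induction j with
      | zero => rfl
      | succ j ih => rw [pow_succ, Module.End.mul_apply, show a z = z from hz, ih]
    have h1 : (∑ i ∈ Finset.range r, a ^ i) z = 0 := by
      rw [hzdef, ← Module.End.mul_apply, geom_sum_mul,
        show a ^ r = 1 from LinearMap.ext fun x => by rw [hapow, hh]; rfl, sub_self, LinearMap.zero_apply]
    rw [LinearMap.sum_apply, Finset.sum_congr rfl (fun i _ => hzj i), Finset.sum_const, Finset.card_range,
      ← Nat.cast_smul_eq_nsmul F] at h1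
    exact (smul_eq_zero.1 h1).resolve_left hr0
  let Inv : Set (Submodule F V) := {P | P ≠ ⊥ ∧ P ≤ W ∧ ∀ x ∈ P, h.1 x ∈ P}
  haveI : Finite (Submodule F V) := Finite.of_injective (fun P => (P : Set V)) SetLike.coe_injective
  have hW0 : W ≠ ⊥ := fun e => hh1 (iso_ext fun x => by
    have : (a - 1) x ∈ W := ⟨x, rfl⟩
    rw [e, Submodule.mem_bot] at this
    exact sub_eq_zero.1 this)
  have hWinv : ∀ x ∈ W, h.1 x ∈ W := by
    rintro _ ⟨w, rfl⟩
    exact ⟨a w, show (a - 1) (a w) = a ((a - 1) w) by simp⟩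
  obtain ⟨U₀, ⟨hne, hUW, hUinv⟩, hmin⟩ := (Inv.toFinite).exists_minimal ⟨W, hW0, le_rfl, hWinv⟩
  have hmin' : ∀ P ≤ U₀, (∀ x ∈ P, h.1 x ∈ P) → P = ⊥ ∨ P = U₀ := fun P hP hPi =>
    or_iff_not_imp_left.2 fun hP0 => le_antisymm hP (hmin (y := P) ⟨hP0, hP.trans hUW, hPi⟩ hP)
  have hfix₀ : ∀ x ∈ U₀, h.1 x = x → x = 0 := fun x hx => hWfix x (hUW hx)
  let K := LinearMap.BilinForm.orthogonal (polarBilin Q) U₀
  have hmem : ∀ y, y ∈ K ↔ ∀ x ∈ U₀, polar Q x y = 0 := fun y => by
    simp [K, LinearMap.BilinForm.mem_orthogonal_iff, LinearMap.BilinForm.IsOrtho]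
  have hmovinv : ∀ {P : Submodule F V}, (∀ x ∈ P, h.1 x ∈ P) → ∀ x ∈ P, ∃ w ∈ P, h.1 w = x := fun {P} hP x hx => by
    obtain ⟨w, hw⟩ := (LinearMap.injective_iff_surjective (f := a.restrict hP)).1
      (fun p q e => Subtype.ext (h.1.injective (congrArg Subtype.val e))) ⟨x, hx⟩
    exact ⟨w, w.2, congrArg Subtype.val hw⟩
  have hKinv : ∀ y ∈ K, h.1 y ∈ K := fun y hy => (hmem _).2 fun x hx => by
    obtain ⟨w, hw, rfl⟩ := hmovinv hUinv x hx
    rw [polar_iso h]; exact (hmem y).1 hy w hw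
  rcases hmin' (U₀ ⊓ K) inf_le_left (fun x hx => ⟨hUinv x hx.1, hKinv x hx.2⟩) with hinf | hinf
  · refine spn_neg_of_irreducible hQ h2 hr hh hUinv hne hfix₀ (fun x hx h0 => ?_) hmin'
    have : x ∈ U₀ ⊓ K := ⟨hx, (hmem x).2 fun y hy => by rw [polar_comm]; exact h0 y hy⟩
    rwa [hinf, Submodule.mem_bot] at this
  have hsing : ∀ x ∈ U₀, Q x = 0 := fun x hx => by
    have hxK : x ∈ K := (hinf.symm.le hx).2
    have h1 := (hmem x).1 hxK x hx
    rw [polar_self, two_nsmul, ← two_mul] at h1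
    exact (mul_eq_zero.1 h1).resolve_left h2
  obtain ⟨U₁, hU₁i, hc⟩ := (Module.End.isSemisimple_iff.1 hss) K hKinv
  have hU₁inv : ∀ x ∈ U₁, h.1 x ∈ U₁ := hU₁i
  have hp₁ : ∀ y ∈ U₁, (∀ x ∈ U₀, polar Q x y = 0) → y = 0 := fun y hy h0 =>
    Submodule.disjoint_def.1 hc.disjoint y ((hmem y).2 h0) hy
  have hp₀ : ∀ x ∈ U₀, (∀ y ∈ U₁, polar Q x y = 0) → x = 0 := fun x hx h0 => hQ x fun v => by
    obtain ⟨k, hk, u, hu, rfl⟩ := Submodule.mem_sup.1 (hc.sup_eq_top ▸ (Submodule.mem_top : v ∈ ⊤))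
    rw [polar_add_right, (hmem k).1 hk x hx, h0 u hu, add_zero]
  have hfix₁ : ∀ y ∈ U₁, h.1 y = y → y = 0 := fun y hy hyf => hp₁ y hy fun x hx => by
    obtain ⟨w, hw⟩ := (LinearMap.injective_iff_surjective
      (f := a.restrict hUinv - LinearMap.id)).1 ((injective_iff_map_eq_zero _).2 fun z hz =>
        Subtype.ext (hfix₀ z z.2 (congrArg Subtype.val (sub_eq_zero.1 hz)))) ⟨x, hx⟩
    rw [← show h.1 (w : V) - w = x from congrArg Subtype.val hw, polar_sub_left, sub_eq_zero]
    conv_lhs => rw [← hyf]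
    exact polar_iso h
  -- the dual block has no proper invariant subspace
  have hmin₁ : ∀ P ≤ U₁, (∀ x ∈ P, h.1 x ∈ P) → P = ⊥ ∨ P = U₁ := by
    intro P hP hPi
    refine or_iff_not_imp_left.2 fun hP0 => ?_
    let AP : Submodule F V := U₀ ⊓ LinearMap.BilinForm.orthogonal (polarBilin Q) P
    have hAP : ∀ x, x ∈ AP ↔ x ∈ U₀ ∧ ∀ y ∈ P, polar Q y x = 0 := fun x => by
      simp [AP, LinearMap.BilinForm.mem_orthogonal_iff, LinearMap.BilinForm.IsOrtho]
    rcases hmin' AP inf_le_left (fun x hx => (hAP _).2 ⟨hUinv x ((hAP x).1 hx).1, fun y hy => by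
      obtain ⟨w, hw, rfl⟩ := hmovinv hPi y hy
      rw [polar_iso h]; exact ((hAP x).1 hx).2 w hw⟩) with hA | hA
    · let f₁ : U₁ →ₗ[F] Module.Dual F U₀ :=
        LinearMap.mk₂ F (fun (y : U₁) (x : U₀) => polar Q (x : V) (y : V)) (fun y y' x => by simp [polar_add_right])
          (fun c y x => by simp [polar_smul_right]) (fun y x x' => by simp [polar_add_left])
          (fun c y x => by simp [polar_smul_left])
      let f₀ : U₀ →ₗ[F] Module.Dual F P :=
        LinearMap.mk₂ F (fun (x : U₀) (y : P) => polar Q (x : V) (y : V)) (fun x x' y => by simp [polar_add_left])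
          (fun c x y => by simp [polar_smul_left]) (fun x y y' => by simp [polar_add_right])
          (fun c x y => by simp [polar_smul_right])
      have h1 := LinearMap.finrank_le_finrank_of_injective (f := f₁) ((injective_iff_map_eq_zero _).2
        fun y hy => Subtype.ext (hp₁ y y.2 fun x hx => LinearMap.congr_fun hy ⟨x, hx⟩))
      have h3 := LinearMap.finrank_le_finrank_of_injective (f := f₀) ((injective_iff_map_eq_zero _).2
        fun x hx => Subtype.ext (by
          have : (x : V) ∈ AP := (hAP _).2 ⟨x.2, fun y hy => by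
            rw [polar_comm]; exact LinearMap.congr_fun hx ⟨y, hy⟩⟩
          rwa [hA, Submodule.mem_bot] at this))
      rw [Subspace.dual_finrank_eq] at h1 h3
      exact Submodule.eq_of_le_of_finrank_le hP (h1.trans h3)
    · refine absurd ?_ hP0
      refine (Submodule.eq_bot_iff _).2 fun y hy => hp₁ y (hP hy) fun x hx => ?_
      rw [polar_comm]
      exact ((hAP x).1 (hA.symm.le hx)).2 y hy
  have hU₁ne : U₁ ≠ ⊥ := fun e => by
    obtain ⟨x, hx, hx0⟩ := (Submodule.ne_bot_iff _).1 hne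
    exact hx0 (hp₀ x hx fun y hy => by
      rw [e, Submodule.mem_bot] at hy
      rw [hy, polar_zero_right])
  let K₁ := LinearMap.BilinForm.orthogonal (polarBilin Q) U₁
  have hmem₁ : ∀ y, y ∈ K₁ ↔ ∀ x ∈ U₁, polar Q x y = 0 := fun y => by
    simp [K₁, LinearMap.BilinForm.mem_orthogonal_iff, LinearMap.BilinForm.IsOrtho]
  rcases hmin₁ (U₁ ⊓ K₁) inf_le_left (fun x hx => ⟨hU₁inv x hx.1, (hmem₁ _).2 fun y hy => by
      obtain ⟨w, hw, rfl⟩ := hmovinv hU₁inv y hy
      rw [polar_iso h]; exact (hmem₁ x).1 hx.2 w hw⟩) with hi | hi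
  · refine spn_neg_of_irreducible hQ h2 hr hh hU₁inv hU₁ne hfix₁ (fun x hx h0 => ?_) hmin₁
    have : x ∈ U₁ ⊓ K₁ := ⟨hx, (hmem₁ x).2 fun y hy => by rw [polar_comm]; exact h0 y hy⟩
    rwa [hi, Submodule.mem_bot] at this
  · refine spn_neg_of_pair hQ h2 hr hh hUinv hU₁inv hne hsing (fun x hx => ?_) hp₀ hp₁ hfix₀ hfix₁ hmin'
    have h1 := (hmem₁ x).1 (hi.symm.le hx).2 x hx
    rw [polar_self, two_nsmul, ← two_mul] at h1
    exact (mul_eq_zero.1 h1).resolve_left h2

end Cfsg.Agent.Lib.AutOmega.SpinCentral
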